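import Cfsg.Agent.H4.GL23
import Cfsg.Agent.H4.IndRep
import Cfsg.Agent.H5.BS

/-! Brauer's characterization of `M₁₁` and `L₃(3)` by the centralizer of an involution. -/

set_option autoImplicit false
set_option linter.unusedSectionVars false
set_option linter.style.haveILetI false

namespace Cfsg.Agent.H4.GL23

open Cfsg Cfsg.Agent.H3 Subgroup
open scoped ComplexConjugate

section Vec
variable {ι : Type*} [Fintype ι] [DecidableEq ι]

theorem sum_eq_list {R : Type*} [CommRing R] (c : ι → ℤ) (l : List ι) (hl : l.Nodup)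
    (h : ∀ x, x ∉ l → c x = 0) (f : ι → R) : ∑ x, c x * f x = (l.map fun x => c x * f x).sum := by
  rw [← List.sum_toFinset _ hl]
  exact (Finset.sum_subset (Finset.subset_univ _) fun x _ hx => by
    rw [h x (by simpa using hx), Int.cast_zero, zero_mul]).symm

theorem sum_sq_split (c : ι → ℤ) (l : List ι) (hl : l.Nodup) :
    ∑ x, c x * c x = (l.map fun x => c x * c x).sum + ∑ x ∈ l.toFinsetᶜ, c x ^ 2 := by
  rw [← List.sum_toFinset _ hl, ← Finset.sum_add_sum_compl l.toFinset]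
  simp only [sq]

theorem unit_cases {x : ℤ} (h : x ^ 2 = 1) : x = 1 ∨ x = -1 := sq_eq_one_iff.1 h

theorem bd1 {x : ℤ} (h : x * x ≤ 3) : -1 ≤ x ∧ x ≤ 1 := by constructor <;> nlinarith

theorem bd2 {x : ℤ} (h : x * x ≤ 4) : -2 ≤ x ∧ x ≤ 2 := by constructor <;> nlinarith

theorem int_e {x1 x2 x3 x4 u1 u2 u3 u4 : ℤ} (e1 : u1 ^ 2 = 1) (e2 : u2 ^ 2 = 1) (e3 : u3 ^ 2 = 1)
    (e4 : u4 ^ 2 = 1) (h4 : u1 * x1 + u2 * x2 = -2) (h5 : u2 * x2 + u3 * x3 + u4 * x4 = -2)
    (h9 : x1 * x1 + x2 * x2 + x3 * x3 + x4 * x4 ≤ 4) (h8 : ¬ (x1 = 0 ∧ x2 = -2 * u2)) :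
    (x1 = -u1 ∧ x2 = -u2) ∧ (x4 = -u4 ∧ x3 = 0 ∨ x3 = -u3 ∧ x4 = 0) := by
  have := mul_self_nonneg x1
  have := mul_self_nonneg x2
  have := mul_self_nonneg x3
  have := mul_self_nonneg x4
  obtain ⟨b1, b2⟩ := bd2 (x := x1) (by omega)
  obtain ⟨b3, b4⟩ := bd2 (x := x2) (by omega)
  obtain ⟨b5, b6⟩ := bd2 (x := x3) (by omega)
  obtain ⟨b7, b8⟩ := bd2 (x := x4) (by omega)
  rcases unit_cases e1 with rfl | rfl <;> rcases unit_cases e2 with rfl | rfl <;>
    rcases unit_cases e3 with rfl | rfl <;> rcases unit_cases e4 with rfl | rfl <;>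
    interval_cases x1 <;> interval_cases x2 <;> first | omega |
      (interval_cases x3 <;> first | omega | (interval_cases x4 <;> omega))

theorem int_a {x1 x2 x3 x4 x5 u1 u2 u3 u4 u5 : ℤ} (e1 : u1 ^ 2 = 1) (e2 : u2 ^ 2 = 1)
    (e3 : u3 ^ 2 = 1) (e4 : u4 ^ 2 = 1) (e5 : u5 ^ 2 = 1) (h4 : u1 * x1 + u2 * x2 = 0)
    (h5 : u2 * x2 + u3 * x3 + u4 * x4 = 0) (h6 : -u4 * x4 + u5 * x5 = 1)
    (h9 : x1 * x1 + x2 * x2 + x3 * x3 + x4 * x4 + x5 * x5 ≤ 2) :
    (x1 = 0 ∧ x2 = 0 ∧ x3 = 0 ∧ x4 = 0 ∧ x5 = u5) ∨ (x3 = u3 ∧ x4 = -u4) := by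
  have := mul_self_nonneg x1
  have := mul_self_nonneg x2
  have := mul_self_nonneg x3
  have := mul_self_nonneg x4
  have := mul_self_nonneg x5
  obtain ⟨b1, b2⟩ := bd1 (x := x1) (by omega)
  obtain ⟨b3, b4⟩ := bd1 (x := x2) (by omega)
  obtain ⟨b5, b6⟩ := bd1 (x := x3) (by omega)
  obtain ⟨b7, b8⟩ := bd1 (x := x4) (by omega)
  obtain ⟨b9, b10⟩ := bd1 (x := x5) (by omega)
  rcases unit_cases e1 with rfl | rfl <;> rcases unit_cases e2 with rfl | rfl <;>
    rcases unit_cases e3 with rfl | rfl <;> rcases unit_cases e4 with rfl | rfl <;>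
    rcases unit_cases e5 with rfl | rfl <;>
    interval_cases x4 <;> interval_cases x5 <;> first | omega |
      (interval_cases x1 <;> interval_cases x2 <;> omega)

theorem vec_c (o : ι) {c d : ι → ℤ} (hcc : ∑ x, c x * c x = 3) (hc : c o = 1)
    (hdd : ∑ x, d x * d x = 3) (hd : d o = 0) (hcd : ∑ x, c x * d x = 1) :
    ∃ i j, [o, i, j].Nodup ∧ c i ^ 2 = 1 ∧ c j ^ 2 = 1 ∧ (∀ x, x ∉ [o, i, j] → c x = 0) ∧
      d i = 0 ∧ d j = c j := by
  rw [sum_sq_split c [o] (by simp)] at hcc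
  obtain ⟨i, hi, j, hj, hij, h1, h2, h3⟩ := H5.exists_pair_of_sum_sq [o].toFinsetᶜ c
    (by simp only [List.map, List.sum_cons, List.sum_nil, hc] at hcc; omega)
  simp only [List.toFinset_cons, List.toFinset_nil, Finset.mem_compl, Finset.mem_insert,
    Finset.notMem_empty, or_false] at hi hj h3
  have hn : [o, i, j].Nodup := by simp [hij, Ne.symm hi, Ne.symm hj]
  have h4 : ∀ x, x ∉ [o, i, j] → c x = 0 := fun x hx => by
    simp only [List.mem_cons, List.not_mem_nil, or_false, not_or] at hx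
    exact h3 x hx.1 hx.2.1 hx.2.2
  have h5 := sum_eq_list c _ hn h4 d
  rw [sum_sq_split d _ hn] at hdd
  have h6 : 0 ≤ ∑ x ∈ [o, i, j].toFinsetᶜ, d x ^ 2 := Finset.sum_nonneg fun _ _ => sq_nonneg _
  simp only [Int.cast_id, hcd, List.map, List.sum_cons, List.sum_nil, hd] at h5 hdd
  have h7 : d i = 0 ∧ d j = c j ∨ d j = 0 ∧ d i = c i := by
    have := mul_self_nonneg (d i)
    have := mul_self_nonneg (d j)
    have := bd1 (x := d i) (by omega)
    have := bd1 (x := d j) (by omega)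
    rcases unit_cases h1 with e | e <;> rcases unit_cases h2 with e' | e' <;>
      rw [e, e'] at h5 ⊢ <;> omega
  rcases h7 with h | h
  · exact ⟨i, j, hn, h1, h2, h4, h⟩
  · exact ⟨j, i, by simp [hij.symm, Ne.symm hi, Ne.symm hj], h2, h1,
      fun x hx => h4 x (by simp only [List.mem_cons] at hx ⊢; tauto), h⟩

theorem vec_main (o : ι) {a b c d e : ι → ℤ}
    (haa : ∑ x, a x * a x = 2) (hbb : ∑ x, b x * b x = 2) (hab : ∑ x, a x * b x = 1)
    (hcc : ∑ x, c x * c x = 3) (hdd : ∑ x, d x * d x = 3) (hee : ∑ x, e x * e x = 4)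
    (hca : ∑ x, c x * a x = 0) (hda : ∑ x, d x * a x = 0) (hcb : ∑ x, c x * b x = 0)
    (hdb : ∑ x, d x * b x = 0) (hea : ∑ x, e x * a x = 1) (heb : ∑ x, e x * b x = 1)
    (hcd : ∑ x, c x * d x = 1) (hce : ∑ x, c x * e x = -2) (hde : ∑ x, d x * e x = -2)
    (ha : a o = 0) (hb : b o = 0) (hc : c o = 1) (hd : d o = 0) (he : e o = 0) :
    ∃ i j k l m, [o, i, j, k, l, m].Nodup ∧ c i ^ 2 = 1 ∧ c j ^ 2 = 1 ∧ d k ^ 2 = 1 ∧ d l ^ 2 = 1 ∧
      e m ^ 2 = 1 ∧ (∀ x, x ∉ [o, i, j] → c x = 0) ∧ (∀ x, x ∉ [j, k, l] → d x = 0) ∧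
      (∀ x, x ∉ [i, j, l, m] → e x = 0) ∧ d j = c j ∧ e i = -c i ∧ e j = -c j ∧ e l = -d l ∧
      (∀ x ∈ [i, j, k, l], a x = 0 ∧ b x = 0) ∧ a m = e m ∧ b m = e m := by
  obtain ⟨i, j, hn, hi, hj, hc0, hdi, hdj⟩ := vec_c o hcc hc hdd hd hcd
  have h1 := sum_sq_split d _ hn
  obtain ⟨k', hk, l', hl, hkl, hk1, hl1, h3⟩ := H5.exists_pair_of_sum_sq [o, i, j].toFinsetᶜ d (by
    rw [hdd] at h1
    simp only [List.map, List.sum_cons, List.sum_nil, hd, hdi, hdj, ← sq, hj] at h1; omega)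
  have hn' := hn
  simp only [List.toFinset_cons, List.toFinset_nil, Finset.mem_compl, Finset.mem_insert,
    Finset.notMem_empty, or_false, not_or, List.nodup_cons, List.mem_cons, List.not_mem_nil,
    List.nodup_nil] at hk hl h3 hn'
  have key : ∃ k l, [o, i, j, k, l].Nodup ∧ d k ^ 2 = 1 ∧ d l ^ 2 = 1 ∧
      (∀ x, x ∉ [j, k, l] → d x = 0) ∧ e i = -c i ∧ e j = -c j ∧ e l = -d l ∧ e k = 0 := by
    have hn5 : [o, i, j, k', l'].Nodup := by simp; tauto
    have hd0 : ∀ x, x ∉ [j, k', l'] → d x = 0 := fun x hx => by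
      simp only [List.mem_cons, List.not_mem_nil, or_false, not_or] at hx
      by_cases h : x = o
      · rw [h, hd]
      by_cases h' : x = i
      · rw [h', hdi]
      exact h3 x ⟨h, h', hx.1⟩ hx.2.1 hx.2.2
    have h4 := sum_eq_list c _ hn hc0 e
    have h5 := sum_eq_list d [j, k', l'] (by simp; tauto) hd0 e
    have h6 := sum_sq_split e _ hn5
    have h7 : 0 ≤ ∑ x ∈ [o, i, j, k', l'].toFinsetᶜ, e x ^ 2 :=
      Finset.sum_nonneg fun _ _ => sq_nonneg _
    have h8 : ¬ (e i = 0 ∧ e j = -2 * c j) := by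
      rintro ⟨h, h'⟩
      have h9 := sum_sq_split e [j] (by simp)
      simp only [hee, List.map, List.sum_cons, List.sum_nil, h'] at h9
      have h10 := sum_eq_list e [j] (by simp) (fun x hx => H5.eq_zero_of_sum_sq [j].toFinsetᶜ e
        (by nlinarith) (by simpa using hx)) a
      simp only [Int.cast_id, hea, List.map, List.sum_cons, List.sum_nil, h', mul_assoc] at h10
      omega
    simp only [Int.cast_id, hce, hde, hee, List.map, List.sum_cons, List.sum_nil, he, hdj] at h4 h5 h6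
    have h9 : e i * e i + e j * e j + e k' * e k' + e l' * e l' ≤ 4 := by omega
    have : (e i = -c i ∧ e j = -c j) ∧ (e l' = -d l' ∧ e k' = 0 ∨ e k' = -d k' ∧ e l' = 0) := by
      exact int_e hi hj hk1 hl1 (by omega) (by omega) h9 h8
    rcases this with ⟨⟨h, h'⟩, h'' | h''⟩
    · exact ⟨k', l', hn5, hk1, hl1, hd0, h, h', h''⟩
    · exact ⟨l', k', by simp; tauto, hl1, hk1,
        fun x hx => hd0 x (by simp only [List.mem_cons] at hx ⊢; tauto), h, h', h''⟩
  clear hk hl h3 hkl hk1 hl1 k' l'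
  obtain ⟨k, l, hn5, hk, hl, hd0, hei, hej, hel, hek⟩ := key
  have h2 := sum_sq_split e _ hn5
  obtain ⟨m, hm, hm1, h3⟩ := H5.exists_sq_eq_one_of_sum_sq [o, i, j, k, l].toFinsetᶜ e (n := 1) (by
    rw [hee] at h2
    simp only [List.map, List.sum_cons, List.sum_nil, he, hei, hej, hel, hek, neg_sq,
      ← sq, hi, hj, hl] at h2
    omega) one_pos (by norm_num)
  have hn5' := hn5
  simp only [List.toFinset_cons, List.toFinset_nil, Finset.mem_compl, Finset.mem_insert,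
    Finset.notMem_empty, or_false, not_or, List.nodup_cons, List.mem_cons, List.not_mem_nil,
    List.nodup_nil] at hm hn5'
  have hn6 : [o, i, j, k, l, m].Nodup := by simp; tauto
  have he0 : ∀ x, x ∉ [i, j, l, m] → e x = 0 := fun x hx => by
    simp only [List.mem_cons, List.not_mem_nil, or_false, not_or] at hx
    by_cases h : x = o
    · rw [h, he]
    by_cases h' : x = k
    · rw [h', hek]
    exact H5.eq_zero_of_sum_sq _ e h3 (by simp; tauto)
  have key : ∀ a : ι → ℤ, ∑ x, a x * a x = 2 → ∑ x, c x * a x = 0 → ∑ x, d x * a x = 0 →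
      ∑ x, e x * a x = 1 → a o = 0 → (a i = 0 ∧ a j = 0 ∧ a k = 0 ∧ a l = 0 ∧ a m = e m) ∨
        (a k = d k ∧ a l = -d l ∧ ∀ x, x ∉ [k, l] → a x = 0) := by
    intro a haa hca hda hea ha
    have h4 := sum_eq_list c _ hn hc0 a
    have h5 := sum_eq_list d [j, k, l] (by simp; tauto) hd0 a
    have h6 := sum_eq_list e [i, j, l, m] (by simp; tauto) he0 a
    have h7 := sum_sq_split a _ hn6
    have h8 : 0 ≤ ∑ x ∈ [o, i, j, k, l, m].toFinsetᶜ, a x ^ 2 :=
      Finset.sum_nonneg fun _ _ => sq_nonneg _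
    simp only [Int.cast_id, hca, hda, hea, haa, List.map, List.sum_cons, List.sum_nil, ha, hdj, hei,
      hej, hel] at h4 h5 h6 h7
    have h9 : a i * a i + a j * a j + a k * a k + a l * a l + a m * a m ≤ 2 := by omega
    have : (a i = 0 ∧ a j = 0 ∧ a k = 0 ∧ a l = 0 ∧ a m = e m) ∨ (a k = d k ∧ a l = -d l) := by
      exact int_a hi hj hk hl hm1 (by omega) (by omega) (by simp only [neg_mul] at h6 ⊢; omega) h9
    refine this.imp_right fun ⟨h, h'⟩ => ⟨h, h', fun x hx => ?_⟩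
    have h9 := sum_sq_split a [k, l] (by simp; tauto)
    rw [haa] at h9
    simp only [List.map, List.sum_cons, List.sum_nil, h, h', neg_sq, ← sq, hk, hl] at h9
    exact H5.eq_zero_of_sum_sq [k, l].toFinsetᶜ a (by omega) (by simpa using hx)
  have hkl : [k, l].Nodup := by simp; tauto
  rcases key a haa hca hda hea ha with ⟨a1, a2, a3, a4, a5⟩ | ⟨a1, a2, a3⟩ <;>
    rcases key b hbb hcb hdb heb hb with ⟨b1, b2, b3, b4, b5⟩ | ⟨b1, b2, b3⟩
  · exact ⟨i, j, k, l, m, hn6, hi, hj, hk, hl, hm1, hc0, hd0, he0, hdj, hei, hej, hel,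
      by simp [*], a5, b5⟩
  · have := sum_eq_list b _ hkl b3 a
    simp only [Int.cast_id, mul_comm (b _), hab] at this
    simp [a3, a4] at this
  · have := sum_eq_list a _ hkl a3 b
    simp only [Int.cast_id, hab] at this
    simp [b3, b4] at this
  · have := sum_eq_list a _ hkl a3 b
    simp only [Int.cast_id, hab, List.map, List.sum_cons, List.sum_nil, a1, a2, b1, b2, neg_sq,
      ← sq, hk, hl] at this
    omega

end Vec

theorem arith {A B C D E g : ℤ} {k : Bool} (hA0 : A ≠ 0) (hC0 : C ≠ 0) (hD0 : D ≠ 0) (hE0 : E ≠ 0)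
    (hg : 0 < g) (h1 : 1 + D - E = 0) (h2 : A + C - E = 0) (h3 : -D + E - C + B = 0)
    (h4 : (1 + 9 / D - 16 / E : ℚ) = 48 / g * if k then 192 else 0)
    (h5 : (1 / A + 9 / C - 16 / E : ℚ) = 48 / g * if k then 192 else 0) (h6 : B % 8 = 2)
    (hA : A ≠ 1) (hD : D ≠ 3) : g = 5616 ∨ g = 7920 := by
  obtain rfl : E = D + 1 := by omega
  obtain rfl : C = B + 1 := by omega
  obtain rfl : A = D - B := by omega
  have hA0' : ((D - B : ℤ) : ℚ) ≠ 0 := by exact_mod_cast hA0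
  have hC0' : ((B + 1 : ℤ) : ℚ) ≠ 0 := by exact_mod_cast hC0
  have hD0' : (D : ℚ) ≠ 0 := by exact_mod_cast hD0
  have hE0' : ((D + 1 : ℤ) : ℚ) ≠ 0 := by exact_mod_cast hE0
  have hg' : (g : ℚ) ≠ 0 := by exact_mod_cast hg.ne'
  have h7 : (D - B - 1) * (D * (B - 8) + 9 * B) = 0 := by
    have := h4.trans h5.symm
    field_simp at this
    have : (D + 1) * ((D - B - 1) * (D * (B - 8) + 9 * B)) = 0 := by
      have h : (((D + 1) * ((D - B - 1) * (D * (B - 8) + 9 * B)) : ℤ) : ℚ) = 0 := by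
        push_cast at this ⊢
        linear_combination this
      exact_mod_cast h
    exact (mul_eq_zero.1 this).resolve_left hE0
  have h8 : (D + 9) * (B - 8) = -72 := by
    have := (mul_eq_zero.1 h7).resolve_left (by omega)
    linear_combination this
  have h9 : (D - 3) ^ 2 * g = D * (D + 1) * if k then 9216 else 0 := by
    field_simp at h4
    have h : (((D - 3) ^ 2 * g : ℤ) : ℚ) = (D * (D + 1) * if k then 9216 else 0 : ℤ) := by
      cases k <;> simp only [Bool.false_eq_true, ↓reduceIte] at h4 ⊢ <;> push_cast at h4 ⊢ <;>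
        linear_combination h4
    exact_mod_cast h
  have h10 : B - 8 ∣ 72 := ⟨-(D + 9), by linear_combination h8⟩
  have h11 := Int.le_of_dvd (by norm_num) h10
  have h12 := Int.le_of_dvd (by norm_num) h10.neg_left
  cases k
  · simp only [Bool.false_eq_true, ↓reduceIte, mul_zero, mul_eq_zero] at h9
    rcases h9 with h | h
    · exact absurd (pow_eq_zero_iff two_ne_zero |>.1 h) (by omega)
    · omega
  simp only [↓reduceIte] at h9
  obtain ⟨n, rfl⟩ : ∃ n, B = 8 * n + 2 := ⟨B / 8, by omega⟩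
  have h13 : -9 ≤ n := by omega
  have h14 : n ≤ 10 := by omega
  clear h10
  have h15 : n = 0 ∧ D = 3 ∨ n = 1 ∧ D = -45 ∨ n = 3 ∧ D = -13 := by interval_cases n <;> omega
  rcases h15 with ⟨rfl, rfl⟩ | ⟨rfl, rfl⟩ | ⟨rfl, rfl⟩ <;> omega

end Cfsg.Agent.H4.GL23
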