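import Cfsg.Agent.H4.GL23b
import Cfsg.Agent.H3.Integral

/-! Brauer's characterization of `M₁₁` and `L₃(3)` by the centralizer of an involution. -/

set_option autoImplicit false
set_option linter.unusedSectionVars false
set_option linter.style.haveILetI false

namespace Cfsg.Agent.H4.GL23

open Cfsg Cfsg.Agent.H3 Subgroup
open scoped ComplexConjugate

section Main
variable {G : Type*} [Group G] [Fintype G]

theorem eq_of_pow_inv (x : G) {k l : ℕ} (h1 : orderOf (x ^ k) = 2) (h2 : orderOf (x ^ l) = 2) :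
    x ^ k = x ^ l := by
  classical
  by_contra h
  have h3 := IsCyclic.card_pow_eq_one_le (α := zpowers x) two_pos
  have h4 : ∀ m : ℕ, orderOf (x ^ m) = 2 → x ^ m ≠ 1 ∧ (x ^ m) ^ 2 = 1 := fun m hm =>
    ⟨fun e => by simp [e] at hm, hm ▸ pow_orderOf_eq_one _⟩
  have h5 : ({1, ⟨x ^ k, npow_mem_zpowers x k⟩, ⟨x ^ l, npow_mem_zpowers x l⟩} :
      Finset (zpowers x)).card = 3 := by
    rw [Finset.card_eq_three]
    exact ⟨_, _, _, fun e => (h4 k h1).1 (congrArg Subtype.val e).symm,
      fun e => (h4 l h2).1 (congrArg Subtype.val e).symm, fun e => h (congrArg Subtype.val e), rfl⟩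
  refine absurd (h5 ▸ (Finset.card_le_card ?_).trans h3) (by norm_num)
  intro y hy
  simp only [Finset.mem_insert, Finset.mem_singleton] at hy
  rcases hy with rfl | rfl | rfl
  · simp
  · simpa [Subtype.ext_iff] using (h4 k h1).2
  · simpa [Subtype.ext_iff] using (h4 l h2).2

theorem sum_conj_elt (t : G) [DecidablePred (IsConj t)] (F : G → ℂ) :
    ∑ z, F (z * t * z⁻¹) = Nat.card (centralizer {t}) * ∑ u with IsConj t u, F u := by
  classical
  rw [← Finset.sum_fiberwise_of_maps_to (s := Finset.univ) (t := Finset.univ.filter (IsConj t))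
    (g := fun z => z * t * z⁻¹) fun z _ => by simp [isConj_iff], Finset.mul_sum]
  refine Finset.sum_congr rfl fun u hu => ?_
  obtain ⟨c, rfl⟩ := isConj_iff.1 (Finset.mem_filter.1 hu).2
  rw [Finset.sum_congr rfl fun z hz => by rw [(Finset.mem_filter.1 hz).2], Finset.sum_const,
    nsmul_eq_mul, ← Fintype.card_subtype, ← Nat.card_eq_fintype_card]
  congr 2
  refine Nat.card_congr ((Equiv.mulLeft c⁻¹).subtypeEquiv fun z => ?_)
  rw [mem_centralizer_singleton_iff, Equiv.coe_mulLeft]
  constructor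
  · intro h
    rw [mul_assoc, eq_mul_inv_iff_mul_eq.1 h.symm |>.symm]
    group
  · intro h
    rw [show z * t * z⁻¹ = c * (c⁻¹ * z * t) * z⁻¹ by group, h]
    group

theorem sum_eq_sum_subgroup (H : Subgroup G) [Fintype H] (f : G → ℂ) (h : ∀ x ∉ H, f x = 0) :
    ∑ x, f x = ∑ x : H, f x := by
  classical
  rw [← Finset.sum_subtype (Finset.univ.filter (· ∈ H)) (by simp)]
  exact (Finset.sum_subset (Finset.subset_univ _) fun x _ hx => h x (by simpa using hx)).symm

theorem inv_formula (t : G) [DecidablePred (IsConj t)] {H : Subgroup G} (hH : centralizer {t} = H)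
    [Fintype H] (θ : H → ℂ)
    (h : ∀ u v, IsConj t u → IsConj t v → extendByZero _ θ (u * v) ≠ 0 → u ∈ H ∧ v ∈ H) :
    ∑ x, indFun _ θ (t * (x * t * x⁻¹)) = Nat.card H *
      ∑ u : H, if IsConj t u then ∑ v : H, if IsConj t v then θ (u * v) else 0 else 0 := by
  classical
  subst hH
  simp only [indFun_apply', ← Finset.mul_sum]
  rw [Finset.sum_comm, Finset.sum_congr rfl fun z _ => (Fintype.sum_equiv (Equiv.mulLeft z) _
    (fun y => extendByZero _ θ (z * t * z⁻¹ * (y * t * y⁻¹))) fun x => by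
      congr 1; simp [mul_assoc]).trans (sum_conj_elt t fun v => extendByZero _ θ (z * t * z⁻¹ * v)),
    ← Finset.mul_sum, inv_mul_cancel_left₀ (natCard_ne_zero_C _),
    sum_conj_elt t fun u => ∑ v with IsConj t v, extendByZero _ θ (u * v)]
  congr 1
  simp only [Finset.sum_filter]
  rw [sum_eq_sum_subgroup (centralizer {t}) _ fun u hu => ?_]
  · refine Finset.sum_congr rfl fun u _ => ?_
    split_ifs with h1
    · rw [sum_eq_sum_subgroup (centralizer {t}) _ fun v hv => ?_]
      · refine Finset.sum_congr rfl fun v _ => ?_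
        rw [← ebz_coe _ θ]; rfl
      · split_ifs with h2
        · by_contra h3
          exact hv (h u v h1 h2 h3).2
        · rfl
    · rfl
  · split_ifs with h1
    · refine Finset.sum_eq_zero fun v _ => ?_
      split_ifs with h2
      · by_contra h3
        exact hu (h u v h1 h2 h3).1
      · rfl
    · rfl

theorem card_eq_of_mod [IsSimpleGroup G] {t : G} (ht : orderOf t = 2)
    {H : Subgroup G} (hH : centralizer {t} = H) {φ : H → Q3} (h : Mod φ) :
    Nat.card G = 5616 ∨ Nat.card G = 7920 := by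
  classical
  have hmem : ∀ {g : G}, g ∈ H ↔ g * t = t * g := hH ▸ mem_centralizer_singleton_iff
  have htH : t ∈ H := hmem.2 rfl
  have ht1 : t ≠ 1 := fun e => by simp [e] at ht
  have hφ1 : ∀ a, φ a = qone ↔ a = 1 := fun a => by rw [← h.one, h.inj.eq_iff]
  have hφt : ∀ a, φ a = qneg ↔ (a : G) = t := by
    have : φ ⟨t, htH⟩ = qneg := (central _ (h.mem _) fun y hy => by
      obtain ⟨b, rfl⟩ := h.surj y hy
      rw [← h.mul, ← h.mul]
      exact congrArg φ (Subtype.ext (hmem.1 b.2).symm)).resolve_left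
        fun e => ht1 (congrArg Subtype.val ((hφ1 _).1 e))
    intro a
    rw [← this, h.inj.eq_iff, Subtype.ext_iff]
  let θ : Fin 5 → H → ℂ := fun i a => io (th i (φ a))
  have hθ : ∀ i, IsGeneralizedCharacter H (θ i) := h.gc_th
  let D : Set G := {g | ∃ k : ℕ, g ^ k = t}
  have hD : ∀ i (a : H), (a : G) ∉ D → θ i a = 0 := fun i a ha => by
    by_contra h0
    have := th_supp i _ (h.mem a) fun e => h0 (by simp only [θ, e, map_zero])
    simp only [← h.mul, hφt] at this
    rcases this with e | e | e | e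
    · exact ha ⟨1, by simpa using e⟩
    · exact ha ⟨2, by simpa [pow_succ] using e⟩
    · exact ha ⟨3, by simpa [pow_succ] using e⟩
    · exact ha ⟨4, by simpa [pow_succ] using e⟩
  have hTI : ∀ g : G, g ∉ H → ∀ x ∈ D, g * x * g⁻¹ ∈ D → x = 1 := by
    rintro g hg x ⟨k, hk⟩ ⟨l, hl⟩
    refine absurd (hmem.2 ?_) hg
    have h1 : (g * x * g⁻¹) ^ k = g * t * g⁻¹ := by rw [conj_pow, hk]
    have := eq_of_pow_inv (g * x * g⁻¹) (k := k) (l := l)
      (by rw [h1, ← ht]; exact (MulAut.conj g).orderOf_eq t) (by rw [hl, ht])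
    rw [h1, hl] at this
    exact mul_inv_eq_iff_eq_mul.1 this
  have hθ1 : ∀ i, θ i 1 = 0 := fun i => by simp only [θ, h.one, th_one, map_zero]
  have hc : (Nat.card H : ℂ) = 48 := by rw [h.card]; norm_num
  choose n hn hΘ using fun i => (isGeneralizedCharacter_indFun H (hθ i)).exists_eq_sum_int
  have hgram : ∀ i j, ∑ χ, n i χ * n j χ = gram i j := fun i j => by
    have h1 := classInner_indFun_TI H D hTI (hθ j).isClassFunction (hD i)
      (fun x hx _ => hD j x hx) (hθ1 i)
    rw [(isClassFunction_indFun H _).classInner_eq_sum, classInner, hc] at h1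
    simp only [hn, θ, ← io_star, ← map_mul, ← map_sum, map_intCast] at h1
    rw [h.sum fun q => th i q * star (th j q), th_gram, map_mul, map_ofNat, map_intCast,
      inv_mul_cancel_left₀ (by norm_num)] at h1
    exact_mod_cast h1
  let o : IrrCharacter G := ⟨1, isIrrCharacter_one⟩
  have hS : ∀ i (χ : IrrCharacter G), ∑ a : H, θ i a * conj (χ.1 a) = 48 * n i χ := fun i χ => by
    have := hn i χ
    rw [frobenius_recip H _ χ.2.isClassFunction, classInner, hc] at this
    rw [← this, mul_inv_cancel_left₀ (by norm_num)]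
  have ho : ∀ i, n i o = if i = 2 then 1 else 0 := fun i => by
    have := hS i o
    simp only [o, θ, Pi.one_apply, map_one, mul_one, ← map_sum] at this
    rw [h.sum (th i), th_sum, map_mul, map_ofNat, mul_right_inj' (by norm_num)] at this
    split_ifs at this ⊢
    · rw [map_one] at this; exact_mod_cast this.symm
    · rw [map_zero] at this; exact_mod_cast this.symm
  choose deg hdeg0 hdeg using fun χ : IrrCharacter G => χ.2.exists_apply_one
  have hpt : ∀ (F : Q3 → R2) (a₀ : H) (χ : G → ℂ), (∀ q ∈ Qs, F q = if q = φ a₀ then 48 else 0) →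
      ∑ a : H, io (F (φ a)) * conj (χ a) = 48 * conj (χ a₀) := fun F a₀ χ hF => by
    rw [Finset.sum_eq_single a₀ (fun a _ ha => ?_) (by simp), hF _ (h.mem _), if_pos rfl, map_ofNat]
    rw [hF _ (h.mem _), if_neg (h.inj.ne ha), map_zero, zero_mul]
  have hT : ∀ χ : IrrCharacter G,
      χ.1 t = (2 * n 0 χ + 2 * n 1 χ + n 2 χ + n 3 χ - 2 * n 4 χ : ℤ) := fun χ => by
    have h1 := hpt _ ⟨t, htH⟩ χ (((hφt ⟨t, htH⟩).2 rfl).symm ▸ th_delta)
    simp only [map_add, map_sub, map_mul, map_ofNat, add_mul, sub_mul, mul_assoc,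
      Finset.sum_add_distrib, Finset.sum_sub_distrib, ← Finset.mul_sum] at h1
    rw [hS 0, hS 1, hS 2, hS 3, hS 4] at h1
    refine (starRingEnd ℂ).injective ?_
    rw [map_intCast]
    push_cast
    linear_combination -h1 / 48
  have hcg : ∀ χ : IrrCharacter G,
      (8 : ℤ) ∣ deg χ + (2 * n 0 χ + 2 * n 1 χ + 7 * n 2 χ - n 3 χ + 2 * n 4 χ) := fun χ => by
    have h1 := hpt _ 1 χ (h.one.symm ▸ th_congr)
    obtain ⟨m, hm⟩ := ((GC.one.add h.gc_f2).add h.gc_f3).exists_int_classInner
      (χ.2.isGeneralizedCharacter.restrict H)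
    rw [classInner, hc, inv_mul_eq_iff_eq_mul₀ (by norm_num)] at hm
    simp only [map_sub, map_mul, map_ofNat, sub_mul, mul_assoc, Finset.sum_sub_distrib,
      ← Finset.mul_sum, hm] at h1
    simp only [map_add, map_sub, map_mul, map_ofNat, add_mul, sub_mul, mul_assoc,
      Finset.sum_add_distrib, Finset.sum_sub_distrib, ← Finset.mul_sum] at h1
    rw [hS 0, hS 1, hS 2, hS 3, hS 4, OneMemClass.coe_one, hdeg, Complex.conj_natCast] at h1
    refine ⟨m, ?_⟩
    have : ((deg χ + (2 * n 0 χ + 2 * n 1 χ + 7 * n 2 χ - n 3 χ + 2 * n 4 χ) : ℤ) : ℂ) =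
        (8 * m : ℤ) := by
      push_cast
      linear_combination -h1 / 48
    exact_mod_cast this
  have hdg : ∀ i, ∑ χ, n i χ * (deg χ : ℤ) = 0 := fun i => by
    have := congrFun (hΘ i) 1
    rw [indFun_one, hθ1, mul_zero] at this
    simp only [Finset.sum_apply, Pi.smul_apply, smul_eq_mul, hdeg] at this
    exact_mod_cast this.symm
  obtain ⟨k, hk⟩ : ∃ k : Bool, ∀ a : H, IsConj t a ↔ φ a ∈ invs k := by
    obtain ⟨s, hs⟩ := h.surj (1, 0, 0, 2) (by decide)
    refine ⟨IsConj t s, fun a => ?_⟩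
    simp only [invs, Finset.mem_filter, h.mem, true_and, decide_eq_true_eq, ← h.mul, hφ1, hφt, ne_eq]
    have key : a * a = 1 → a ≠ 1 → (a : G) ≠ t → IsConj (s : G) a := fun h1 h2 h3 => by
      obtain ⟨y, hy, e⟩ := inv_conj _ (h.mem a) (by rw [← h.mul, h1, h.one]) ((hφ1 _).not.2 h2)
        ((hφt _).not.2 h3)
      obtain ⟨b, rfl⟩ := h.surj y hy
      rw [← hs, ← h.mul, ← h.mul, h.inj.eq_iff] at e
      exact isConj_iff.2 ⟨b, mul_inv_eq_iff_eq_mul.2 (congrArg Subtype.val e)⟩
    constructor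
    · intro h1
      have h2 : orderOf (a : G) = 2 := by
        obtain ⟨c, hc⟩ := isConj_iff.1 h1
        rw [← hc, ← ht]; exact (MulAut.conj c).orderOf_eq t
      have h3 : a * a = 1 := Subtype.ext (by simpa [h2, sq] using pow_orderOf_eq_one (a : G))
      have h4 : a ≠ 1 := fun e => by simp [e] at h2
      by_cases h5 : (a : G) = t
      · exact Or.inl h5
      · exact Or.inr ⟨h1.trans (key h3 h4 h5).symm, h3, h4⟩
    · rintro (h1 | ⟨h1, h2, h3⟩)
      · rw [h1]
      · by_cases h5 : (a : G) = t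
        · rw [h5]
        · exact h1.trans (key h2 h3 h5)
  have hinv : ∀ i, (∑ u ∈ invs k, ∑ v ∈ invs k, th i (qmul u v) = if k then 192 else 0) →
      ∑ χ : IrrCharacter G, (n i χ : ℚ) *
        ((2 * n 0 χ + 2 * n 1 χ + n 2 χ + n 3 χ - 2 * n 4 χ : ℤ) ^ 2 / deg χ) =
        48 / (Nat.card G : ℤ) * if k then 192 else 0 := fun i hi => by
    have h1 := inv_formula t hH (θ i) fun u v hu hv h0 => by
      have h1 : u * v ∈ D := by
        by_contra h1
        by_cases h2 : u * v ∈ H
        · exact h0 ((ebz_of_mem _ _ h2).trans (hD i _ h1))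
        · exact h0 (ebz_of_not_mem _ _ h2)
      have h2 : ∀ u, IsConj t u → u⁻¹ = u := fun u hu => by
        obtain ⟨c, rfl⟩ := isConj_iff.1 hu
        rw [inv_eq_iff_mul_eq_one, conj_mul, ← sq, ← ht, pow_orderOf_eq_one, mul_one, mul_inv_cancel]
      obtain ⟨m, hm⟩ := h1
      have h3 : t⁻¹ = t := h2 t (IsConj.refl t)
      have h4 : u * t * u⁻¹ = t := by
        rw [← hm, ← conj_pow, hm, ← h3, ← hm, ← inv_pow, mul_inv_rev, h2 u hu, h2 v hv]
        congr 1
        nth_rw 2 [← h2 u hu]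
        group
      have h5 : u ∈ H := hmem.2 (mul_inv_eq_iff_eq_mul.1 h4)
      refine ⟨h5, (mul_mem_cancel_left h5).1 (hmem.2 ?_)⟩
      rw [← hm, ← pow_succ, pow_succ']
    have h2 : ∀ F : Q3 → R2, ∑ u : H, (if φ u ∈ invs k then F (φ u) else 0) = ∑ u ∈ invs k, F u :=
      fun F => by
        rw [h.sum fun q => if q ∈ invs k then F q else 0, ← Finset.sum_filter,
          Finset.filter_mem_eq_inter, Finset.inter_eq_right.2 (show invs k ⊆ Qs from Finset.filter_subset _ _)]
    rw [hΘ i, hc] at h1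
    simp only [Finset.sum_apply, Pi.smul_apply, smul_eq_mul] at h1
    rw [Finset.sum_comm] at h1
    simp only [← Finset.mul_sum, fun χ : IrrCharacter G => χ.2.sum_apply_mul_conj t t, hT, hdeg, hk,
      θ, h.mul, ← io.map_zero, ← apply_ite io, ← map_sum] at h1
    rw [Finset.sum_congr rfl fun (u : H) _ => by rw [h2 fun v => th i (qmul (φ u) v)],
      h2 fun u => ∑ v ∈ invs k, th i (qmul u v), hi, apply_ite io, map_ofNat, map_zero] at h1
    have h3 := natCard_ne_zero_C G
    apply Rat.cast_injective (α := ℂ)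
    push_cast [apply_ite (Rat.cast : ℚ → ℂ)] at h1 ⊢
    rw [div_mul_eq_mul_div, ← h1, Finset.sum_div]
    exact Finset.sum_congr rfl fun χ _ => by field_simp
  obtain ⟨i, j, k', l, m, hnd, hi, hj, hk', hl, hm, hc0, hd0, he0, e1, e2, e3, e4, e5, e6, e7⟩ :=
    vec_main o (hgram 0 0) (hgram 1 1) (hgram 0 1) (hgram 2 2) (hgram 3 3) (hgram 4 4) (hgram 2 0)
      (hgram 3 0) (hgram 2 1) (hgram 3 1) (hgram 4 0) (hgram 4 1) (hgram 2 3) (hgram 2 4)
      (hgram 3 4) (ho 0) (ho 1) (ho 2) (ho 3) (ho 4)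
  have hnd' := hnd
  simp only [List.nodup_cons, List.mem_cons, List.not_mem_nil, or_false, not_or] at hnd'
  have n1 : [o, i, j].Nodup := by simp; tauto
  have n2 : [j, k', l].Nodup := by simp; tauto
  have n3 : [i, j, l, m].Nodup := by simp; tauto
  have f1 : n 3 i = 0 := hd0 _ (by simp; tauto)
  have f2 : n 2 k' = 0 := hc0 _ (by simp; tauto)
  have f3 : n 4 k' = 0 := he0 _ (by simp; tauto)
  have f4 : n 2 l = 0 := hc0 _ (by simp; tauto)
  have f5 : n 2 m = 0 := hc0 _ (by simp; tauto)
  have f6 : n 3 m = 0 := hd0 _ (by simp; tauto)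
  have hdo : deg o = 1 := Nat.cast_eq_one.1 (hdeg o).symm
  simp only [List.mem_cons, List.not_mem_nil, or_false, forall_eq_or_imp, forall_eq] at e5
  have d1 := (sum_eq_list _ _ n1 hc0 _).symm.trans (hdg 2)
  have d2 := (sum_eq_list _ _ n2 hd0 _).symm.trans (hdg 3)
  have d3 := (sum_eq_list _ _ n3 he0 _).symm.trans (hdg 4)
  have q1 := (sum_eq_list _ _ n1 hc0 _).symm.trans (hinv 2 (th_invs k).1)
  have q2 := (sum_eq_list _ _ n2 hd0 _).symm.trans (hinv 3 (th_invs k).2)
  have c1 := hcg m
  have o0 : n 0 o = 0 := ho 0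
  have o1 : n 1 o = 0 := ho 1
  have o2 : n 2 o = 1 := ho 2
  have o3 : n 3 o = 0 := ho 3
  have o4 : n 4 o = 0 := ho 4
  simp only [List.map, List.sum_cons, List.sum_nil, o0, o1, o2, o3, o4, hdo, e1, e2, e3, e4, e5, e6, e7, f1, f2, f3,
    f4, f5, f6, Int.cast_id] at d1 d2 d3 q1 q2 c1
  have hker : ∀ χ : IrrCharacter G, χ ≠ o → χ.1 t ≠ deg χ ∧ deg χ ≠ 1 := fun χ hχ => by
    have h1 := χ.2.charKer_eq_bot_of_simple fun e => hχ (Subtype.ext e)
    refine ⟨fun e => ht1 (mem_bot.1 (h1 ▸ χ.2.isCharacter.mem_charKer.2 (e.trans (hdeg χ).symm))),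
      fun e => ?_⟩
    have h2 : χ.1 1 = 1 := by rw [hdeg, e, Nat.cast_one]
    have h3 : H = ⊤ := eq_top_iff.2 fun g _ => hmem.2 (by
      rw [← mul_inv_eq_one, ← mem_bot, ← h1, χ.2.isCharacter.mem_charKer, mul_inv_rev,
        χ.2.isCharacter.map_mul_of_apply_one h2, χ.2.isCharacter.map_mul_of_apply_one h2,
        χ.2.isCharacter.map_mul_of_apply_one h2, mul_mul_mul_comm,
        ← χ.2.isCharacter.map_mul_of_apply_one h2, ← χ.2.isCharacter.map_mul_of_apply_one h2]
      simp [h2])
    have h4 : (zpowers t).Normal := ⟨fun x hx g => by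
      obtain ⟨k, rfl⟩ := mem_zpowers_iff.1 hx
      have : g * t = t * g := hmem.1 (show g ∈ H from h3 ▸ mem_top g)
      rw [← conj_zpow, this, mul_inv_cancel_right]
      exact zpow_mem (mem_zpowers t) k⟩
    rcases h4.eq_bot_or_eq_top with e | e
    · exact ht1 (zpowers_eq_bot.1 e)
    · have := h.card
      rw [h3, ← e, Nat.card_zpowers, ht] at this
      omega
  have p1 := hdeg0 i
  have p2 := hdeg0 j
  have p3 := hdeg0 k'
  have p4 := hdeg0 l
  have := arith (A := n 3 k' * deg k') (B := n 4 m * deg m) (C := n 3 l * deg l)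
    (D := n 2 i * deg i) (E := -n 2 j * deg j) (g := Nat.card G) (k := k)
    (by rcases unit_cases hk' with e | e <;> rw [e] <;> omega)
    (by rcases unit_cases hl with e | e <;> rw [e] <;> omega)
    (by rcases unit_cases hi with e | e <;> rw [e] <;> omega)
    (by rcases unit_cases hj with e | e <;> rw [e] <;> omega)
    (by exact_mod_cast Nat.card_pos) (by push_cast at d1; linarith) (by linarith) (by linarith)
    (by
      rw [← q1]
      rcases unit_cases hi with e | e <;> rcases unit_cases hj with e' | e' <;> rw [e, e'] <;>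
        simp <;> ring)
    (by
      rw [← q2]
      rcases unit_cases hk' with e | e <;> rcases unit_cases hj with e' | e' <;>
        rcases unit_cases hl with e'' | e'' <;> rw [e, e', e''] <;> simp <;> ring)
    (by rcases unit_cases hm with e | e <;> rw [e] at c1 ⊢ <;> omega)
    (by
      have := (hker k' (by tauto)).2
      rcases unit_cases hk' with e | e <;> rw [e] <;> omega)
    (by
      have := (hker i (by tauto)).1
      rw [hT, e5.1.1, e5.1.2, f1, e2] at this
      intro e
      refine this ?_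
      rcases unit_cases hi with e' | e' <;> rw [e'] at e ⊢
      · rw [show deg i = 3 by omega]; norm_num
      · omega)
  omega

end Main

end Cfsg.Agent.H4.GL23
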