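import Mathlib
import Cfsg.Agent.H5.More
import Cfsg.Agent.H3.Quot
import Cfsg.Agent.H2.Quat

/-! Tools for showing that a concrete group has a single block. -/

set_option autoImplicit false
set_option maxHeartbeats 400000
set_option linter.unusedSectionVars false
set_option linter.style.haveILetI false

namespace Cfsg.Agent.H4

open Cfsg Cfsg.Agent.H3 Cfsg.Agent.H5 Subgroup
open scoped ComplexConjugate

variable {G : Type*} [Group G] [Finite G]

/-- The centraliser of `z` contains a normal `p`-subgroup with `p`-group centraliser. -/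
def CharAt (p : ℕ) (z : G) : Prop :=
  ∃ Q : Subgroup G, IsPGroup p Q ∧ (∀ q ∈ Q, Commute q z) ∧
    (∀ g, Commute g z → ∀ q ∈ Q, g * q * g⁻¹ ∈ Q) ∧
    ∀ g, Commute g z → (∀ q ∈ Q, Commute g q) → ¬ p ∣ orderOf g → g = 1

theorem CharAt.conj {p : ℕ} {z : G} (h : CharAt p z) (u : G) : CharAt p (u * z * u⁻¹) := by
  obtain ⟨Q, h1, h2, h3, h4⟩ := h
  have k : ∀ {a b : G}, Commute a (u * b * u⁻¹) → Commute (u⁻¹ * a * u) b := fun {a b} e => by
    have := e.conj u⁻¹
    simpa [mul_assoc] using this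
  refine ⟨Q.map (MulAut.conj u).toMonoidHom, h1.map _, ?_, ?_, ?_⟩
  · rintro _ ⟨q, hq, rfl⟩
    exact (h2 q hq).conj u
  · rintro g hg _ ⟨q, hq, rfl⟩
    exact ⟨_, h3 _ (k hg) q hq, by simp [mul_assoc]⟩
  · intro g hg hc ho
    have := h4 _ (k hg) (fun q hq => k (hc _ ⟨q, hq, rfl⟩)) (by
      rwa [show u⁻¹ * g * u = u⁻¹ * g * u⁻¹⁻¹ by simp, H6_orderOf_conj])
    calc g = u * (u⁻¹ * g * u) * u⁻¹ := by group
      _ = 1 := by rw [this]; group
where H6_orderOf_conj {a b : G} : orderOf (a * b * a⁻¹) = orderOf b :=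
  (MulAut.conj a).orderOf_eq b

theorem sameBlock_of_charAt {p : ℕ} [Fact p.Prime] {M : Ideal AlgInt} (hM : IsPModular p M)
    (h1 : ∀ z : G, orderOf z = p → CharAt p z)
    (h2 : ∀ χ : IrrCharacter G, ∀ d : ℕ, (χ : G → ℂ) 1 = d →
      d.factorization p ≠ (Nat.card G).factorization p) (χ ψ : IrrCharacter G) :
    SameBlock M (χ : G → ℂ) ψ := by
  have := hM.2.1
  have := charP_res hM
  suffices h : ∀ χ : IrrCharacter G, χ ∈ principalBlock M G from
    IsPBlock.sameBlock isPBlock_principalBlock (h χ) (h ψ)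
  intro χ
  have hB := isPBlock_blockOf (M := M) χ
  obtain ⟨D, hD⟩ := IsPBlock.exists_defectGroup p hB
  by_cases hD1 : D = ⊥
  · exact absurd ((blockDefect_blockOf_eq_zero_iff χ).1 ((IsDefectGroup.eq_bot_iff hB hD).1 hD1))
      (h2 χ _ χ.2.cast_charDegree.symm)
  haveI : Nontrivial D := (nontrivial_iff_ne_bot D).2 hD1
  obtain ⟨z, hz, hzo⟩ := H2.exists_orderOf_eq_prime_mem (IsDefectGroup.isPGroup hD)
    (A := ⊤) top_ne_bot
  have hzo' : orderOf (z : G) = p := by rw [Subgroup.orderOf_coe, hzo]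
  obtain ⟨Q, q1, q2, q3, q4⟩ := h1 z hzo'
  have hP : IsPGroup p (zpowers (z : G)) := (IsDefectGroup.isPGroup hD).to_le (zpowers_le.2 z.2)
  obtain ⟨b, hb⟩ := exists_isInducedBlock_of_subConj (H := cz (z : G)) hP (zpowers_le_cz _)
    (fun g hg => mem_cz.2 (hg _ (mem_zpowers _)).symm)
    ((show cz (z : G) ≤ centralizer (zpowers (z : G) : Set G) from fun g hg x hx => by
      obtain ⟨k, rfl⟩ := hx
      exact ((show Commute g z from mem_cz.1 hg).zpow_right k).symm).trans
      (centralizer_le_normalizer _)) hB hD (subConj_of_le (zpowers_le.2 z.2))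
  haveI : (Q.subgroupOf (cz (z : G))).Normal := ⟨fun q hq g => q3 g (mem_cz.1 g.2) q hq⟩
  have hb' : b = principalBlock M (cz (z : G)) := by
    obtain ⟨ξ, hξ⟩ := IsPBlock.nonempty hb.1
    refine IsPBlock.eq_of_mem hb.1 isPBlock_principalBlock hξ
      (sameBlock_of_centralizer_le (Q := Q.subgroupOf (cz (z : G))) (q1.comap_subtype)
        (fun x hx ho => Subtype.ext (q4 x (mem_cz.1 x.2) (fun q hq => ?_) ?_)) (irrOne _) ξ)
    · exact (congrArg Subtype.val (hx ⟨q, mem_cz.2 (q2 q hq)⟩ hq)).symm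
    · rwa [Subgroup.orderOf_coe]
  have := IsInducedBlock.unique hb ((third_main p ⟨_, hb⟩).2 hb')
  rw [← this]
  exact mem_blockOf_self χ

theorem sum_norm_div_le {χ : G → ℂ} (hχ : IsIrrCharacter G χ) {ι : Type*} [Fintype ι] (x : ι → G)
    (hx : ∀ i j, IsConj (x i) (x j) → i = j) (n : ι → ℕ)
    (hn : ∀ i, Nat.card (centralizer ({x i} : Set G)) ≤ n i) :
    ∑ i, ‖χ (x i)‖ ^ 2 / n i ≤ 1 := by
  classical
  haveI := Fintype.ofFinite G
  have h1 := hχ.classInner_self
  rw [classInner_self_eq, ← Complex.ofReal_one, Complex.ofReal_inj] at h1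
  have hG : (0 : ℝ) < Nat.card G := by exact_mod_cast Nat.card_pos
  have h2 : ∑ i, ∑ g ∈ Finset.univ.filter (IsConj (x i)), ‖χ g‖ ^ 2 ≤ ∑ g, ‖χ g‖ ^ 2 := by
    rw [← Finset.sum_biUnion]
    · exact Finset.sum_le_sum_of_subset_of_nonneg (Finset.subset_univ _) fun _ _ _ => by positivity
    · intro i _ j _ hij
      refine Finset.disjoint_left.2 fun g hi hj => hij (hx i j ?_)
      exact (Finset.mem_filter.1 hi).2.trans (Finset.mem_filter.1 hj).2.symm
  rw [← h1, le_inv_mul_iff₀ hG, Finset.mul_sum]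
  refine le_trans (Finset.sum_le_sum fun i _ => ?_) h2
  rw [Finset.sum_congr rfl fun g hg =>
    by rw [← hχ.isClassFunction.eq_of_isConj (Finset.mem_filter.1 hg).2], Finset.sum_const,
    card_filter_isConj, nsmul_eq_mul, ← (centralizer ({x i} : Set G)).index_mul_card,
    Nat.cast_mul, mul_assoc]
  refine mul_le_mul_of_nonneg_left ?_ (by positivity)
  have h3 : (0 : ℝ) < Nat.card (centralizer ({x i} : Set G)) := by exact_mod_cast Nat.card_pos
  have h4 : (Nat.card (centralizer ({x i} : Set G)) : ℝ) ≤ n i := by exact_mod_cast hn i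
  rw [mul_div_assoc', div_le_iff₀ (h3.trans_le h4), mul_comm]
  exact mul_le_mul_of_nonneg_left h4 (by positivity)

theorem exists_sum_eq {χ : G → ℂ} (hχ : IsCharacter G χ) {E : Type*} [Group E] [Fintype E]
    (φ : E →* G) : ∃ k : ℕ, ∑ e, χ (φ e) = Fintype.card E * k := by
  obtain ⟨k, hk⟩ := (hχ.comp φ).exists_nat_classInner isCharacter_one'
  refine ⟨k, ?_⟩
  rw [← hk, classInner, ← Nat.card_eq_fintype_card, mul_inv_cancel_left₀ natCard_ne_zero]
  simp

theorem exists_sum_norm_eq {χ : G → ℂ} (hχ : IsCharacter G χ) {E : Type*} [Group E] [Fintype E]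
    (φ : E →* G) : ∃ k : ℕ, ∑ e, χ (φ e) * conj (χ (φ e)) = Fintype.card E * k := by
  obtain ⟨k, hk⟩ := (hχ.comp φ).exists_nat_classInner (hχ.comp φ)
  refine ⟨k, ?_⟩
  rw [← hk, classInner, ← Nat.card_eq_fintype_card, mul_inv_cancel_left₀ natCard_ne_zero]

theorem sum_eq_of_const {E : Type*} [Group E] [Fintype E] (f : E → ℂ) {c : ℂ}
    (h : ∀ e, e ≠ 1 → f e = c) : ∑ e, f e = f 1 + (Fintype.card E - 1) * c := by
  classical
  rw [← Finset.add_sum_erase _ _ (Finset.mem_univ 1), Finset.sum_congr rfl fun e he =>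
    h e (Finset.ne_of_mem_erase he), Finset.sum_const, Finset.card_erase_of_mem (Finset.mem_univ _),
    Finset.card_univ, nsmul_eq_mul, Nat.cast_sub Fintype.card_pos, Nat.cast_one]

theorem exists_int_of_mul_eq {α : ℂ} (hα : IsIntegral ℤ α) {a b : ℤ} (ha : a ≠ 0)
    (h : a * α = b) : ∃ c : ℤ, α = c := by
  have ha' : (a : ℂ) ≠ 0 := by exact_mod_cast ha
  obtain ⟨k, hk⟩ := hα.exists_int_iff_exists_rat.mp ⟨b / a, by
    push_cast; rw [eq_div_iff ha', ← h, mul_comm]⟩
  exact ⟨k, by simpa using hk⟩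

theorem exists_int_of_hom {χ : G → ℂ} (hχ : IsCharacter G χ) {d : ℕ} (hd : χ 1 = d) {E : Type*}
    [Group E] [Fintype E] [Nontrivial E] (φ : E →* G) {x : G} (h : ∀ e, e ≠ 1 → IsConj x (φ e)) :
    ∃ c : ℤ, χ x = c ∧ (Fintype.card E : ℤ) ∣ d - c := by
  obtain ⟨k, hk⟩ := exists_sum_eq hχ φ
  rw [sum_eq_of_const _ fun e he => (hχ.isClassFunction.eq_of_isConj (h e he)).symm, map_one,
    hd] at hk
  obtain ⟨c, hc⟩ := exists_int_of_mul_eq (hχ.isIntegral x) (a := Fintype.card E - 1)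
    (b := Fintype.card E * k - d) (by have := Fintype.one_lt_card (α := E); omega)
    (by push_cast; linear_combination hk)
  refine ⟨c, hc, k - c, ?_⟩
  rw [hc] at hk
  have : (d : ℤ) + (Fintype.card E - 1) * c = Fintype.card E * k := by exact_mod_cast hk
  linear_combination this

theorem exists_int_of_hom_inv {χ : G → ℂ} (hχ : IsCharacter G χ) {d : ℕ} (hd : χ 1 = d)
    {E : Type*} [Group E] [Fintype E] [Nontrivial E] (φ : E →* G) {x : G}
    (h : ∀ e, e ≠ 1 → IsConj x (φ e) ∨ IsConj x⁻¹ (φ e)) :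
    ∃ s n : ℤ, ‖χ x‖ ^ 2 = n ∧ s ^ 2 ≤ 4 * n ∧ (Fintype.card E : ℤ) ∣ 2 * d - s ∧
      (Fintype.card E : ℤ) ∣ d ^ 2 - n := by
  have hcf := hχ.isClassFunction
  have h1 : ∀ e, e ≠ 1 → χ (φ e) = χ x ∨ χ (φ e) = conj (χ x) := fun e he =>
    (h e he).imp (fun k => (hcf.eq_of_isConj k).symm)
      fun k => by rw [← hcf.eq_of_isConj k, hχ.apply_inv]
  have hE : (Fintype.card E : ℤ) - 1 ≠ 0 := by have := Fintype.one_lt_card (α := E); omega
  obtain ⟨k, hk⟩ := exists_sum_eq hχ φ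
  obtain ⟨l, hl⟩ := exists_sum_norm_eq hχ φ
  have hk' : ∑ e, (χ (φ e) + conj (χ (φ e))) = 2 * (Fintype.card E * k) := by
    rw [Finset.sum_add_distrib, ← map_sum, hk]; simp [two_mul]
  rw [sum_eq_of_const (c := χ x + conj (χ x)) _ fun e he => by
    rcases h1 e he with k | k <;> simp [k, add_comm], map_one, hd] at hk'
  rw [sum_eq_of_const (c := χ x * conj (χ x)) _ fun e he => by
    rcases h1 e he with k | k <;> simp [k, mul_comm], map_one, hd] at hl
  have hi := hχ.isIntegral x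
  have hi' : IsIntegral ℤ (conj (χ x)) := hχ.conj.isIntegral x
  rw [map_natCast] at hk' hl
  obtain ⟨s, hs⟩ := exists_int_of_mul_eq (hi.add hi') hE
    (b := 2 * (Fintype.card E * k) - 2 * d) (by push_cast; linear_combination hk')
  obtain ⟨n, hn⟩ := exists_int_of_mul_eq (hi.mul hi') hE
    (b := Fintype.card E * l - d ^ 2) (by push_cast; linear_combination hl)
  have hn' : ‖χ x‖ ^ 2 = n := by
    rw [Complex.mul_conj, Complex.normSq_eq_norm_sq] at hn
    exact_mod_cast hn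
  refine ⟨s, n, hn', ?_, ⟨2 * k - s, ?_⟩, ⟨l - n, ?_⟩⟩
  · have h2 : 2 * (χ x).re = s := by
      rw [Complex.add_conj] at hs
      exact_mod_cast hs
    have h3 : (χ x).re ^ 2 ≤ ‖χ x‖ ^ 2 := by
      rw [← sq_abs]; exact pow_le_pow_left₀ (abs_nonneg _) (Complex.abs_re_le_norm _) 2
    have : (s : ℝ) ^ 2 ≤ 4 * n := by rw [← h2, ← hn']; linarith
    exact_mod_cast this
  · rw [hs] at hk'
    have : (d : ℤ) + d + (Fintype.card E - 1) * s = 2 * (Fintype.card E * k) := by
      exact_mod_cast hk'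
    linear_combination this
  · rw [hn] at hl
    have : (d : ℤ) * d + (Fintype.card E - 1) * n = Fintype.card E * l := by exact_mod_cast hl
    linear_combination this

theorem dvd_of_central {χ : G → ℂ} (hχ : IsIrrCharacter G χ) {d : ℕ} (hd : χ 1 = d) {x : G}
    {c : ℤ} (hc : χ x = c) {r : ℕ} (hr : r ∣ Nat.card (centralizer ({x} : Set G))) :
    (d * r : ℤ) ∣ Nat.card G * c := by
  have h1 := hχ.isIntegral_centralChar x
  rw [centralChar, hd, hc] at h1
  have hd0 : (d : ℤ) ≠ 0 := fun e => hχ.apply_one_ne_zero (by rw [hd]; exact_mod_cast e)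
  have h2 := int_dvd_of_isIntegral_div (a := (centralizer ({x} : Set G)).index * c) hd0
    (by push_cast; exact h1)
  rw [← (centralizer ({x} : Set G)).index_mul_card, Nat.cast_mul, mul_right_comm]
  exact mul_dvd_mul h2 (by exact_mod_cast hr)

/-- The homomorphism from a cyclic group given by an element. -/
def cycHom (m : ℕ) [NeZero m] (a : G) (h : a ^ m = 1) : Multiplicative (ZMod m) →* G :=
  MonoidHom.mk' (fun i => a ^ i.toAdd.val) fun i j => by
    rw [toAdd_mul, ZMod.val_add, ← pow_eq_pow_mod _ h, pow_add]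

theorem cycHom_apply (m : ℕ) [NeZero m] (a : G) (h : a ^ m = 1) (i : Multiplicative (ZMod m)) :
    cycHom m a h i = a ^ i.toAdd.val := rfl

theorem isConj_pow_two_pow {g : G} (h : IsConj g (g ^ 2)) (k : ℕ) : IsConj g (g ^ 2 ^ k) := by
  induction k with
  | zero => rw [pow_zero, pow_one]
  | succ k ih => rw [pow_succ, pow_mul]; exact h.trans (ih.pow 2)

end Cfsg.Agent.H4
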