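import Mathlib
import Cfsg.Agent.L.MathieuOrd
import Cfsg.Agent.L.PCGrp
import Cfsg.Agent.H4.OneBlock

/-! Coded permutation tools: listed subgroups, centraliser bounds, conjugacy certificates. -/

set_option autoImplicit false
set_option maxHeartbeats 400000
set_option linter.unusedSectionVars false
set_option linter.style.haveILetI false

namespace Cfsg.Agent.H4

open Cfsg Cfsg.Agent.L Cfsg.Agent.L.PC Equiv Subgroup

variable {α : Type} {w n : ℕ} (E : Enc α w n) [Finite α]

def closedL (w n : ℕ) (L : List ℕ) : Bool :=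
  and (memb (idc w n) L) (alll (fun a => alll (fun b => memb (mulc w n a b) L) L) L)

/-- The subgroup with the listed codes. -/
def lsub (L : List ℕ) (h : closedL w n L = true) : Subgroup (Perm α) where
  carrier := {g | E.code g ∈ L}
  one_mem' := by
    change E.code 1 ∈ L
    rw [E.code_one]; exact memb_iff.1 (Bool.and_eq_true_iff.1 h).1
  mul_mem' := fun {a b} ha hb => by
    change E.code (a * b) ∈ L
    rw [E.code_mul]
    exact memb_iff.1 (alll_iff.1 (alll_iff.1 (Bool.and_eq_true_iff.1 h).2 _ ha) _ hb)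
  inv_mem' := fun {a} ha => by
    have key : ∀ k : ℕ, E.code (a ^ k) ∈ L := fun k => by
      induction k with
      | zero => rw [pow_zero, E.code_one]; exact memb_iff.1 (Bool.and_eq_true_iff.1 h).1
      | succ k ih =>
        rw [pow_succ, E.code_mul]
        exact memb_iff.1 (alll_iff.1 (alll_iff.1 (Bool.and_eq_true_iff.1 h).2 _ ih) _ ha)
    obtain ⟨k, hk⟩ := (mem_powers_iff_mem_zpowers (x := a) (y := a⁻¹)).2 (inv_mem (mem_zpowers a))
    exact hk ▸ key k

theorem mem_lsub {L : List ℕ} {h : closedL w n L = true} {g : Perm α} :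
    g ∈ lsub E L h ↔ E.code g ∈ L := Iff.rfl

theorem card_le_length {K : Subgroup (Perm α)} {L : List ℕ} (h : ∀ g ∈ K, E.code g ∈ L) :
    Nat.card K ≤ L.length := by
  classical
  refine le_trans ?_ L.toFinset_card_le
  rw [← Nat.card_eq_finsetCard]
  exact Nat.card_le_card_of_injective
    (fun g : K => (⟨E.code g, List.mem_toFinset.2 (h g g.2)⟩ : L.toFinset))
    fun a b e => Subtype.ext (E.code_inj.1 (congrArg Subtype.val e))

theorem lsub_le {G : Subgroup (Perm α)} {t : ℕ → Bool} (ht : E.Tests G t) {L : List ℕ}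
    (h : closedL w n L = true) (h1 : alll t L = true) : lsub E L h ≤ G := fun g hg => by
  obtain ⟨k, hk, e⟩ := ht _ (alll_iff.1 h1 _ hg)
  exact E.code_inj.1 e ▸ hk

theorem card_lsub {G : Subgroup (Perm α)} {t : ℕ → Bool} (ht : E.Tests G t) {L : List ℕ}
    (h : closedL w n L = true) (h1 : alll t L = true) (h2 : nodupb L = true) :
    Nat.card (lsub E L h) = L.length := by
  classical
  refine le_antisymm (card_le_length E fun g hg => hg) ?_
  rw [← List.toFinset_card_of_nodup (nodup_of_nodupb h2), ← Nat.card_eq_finsetCard]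
  refine Nat.card_le_card_of_surjective
    (fun g : lsub E L h => (⟨E.code g, List.mem_toFinset.2 g.2⟩ : L.toFinset)) fun c => ?_
  obtain ⟨g, -, e⟩ := ht _ (alll_iff.1 h1 _ (List.mem_toFinset.1 c.2))
  exact ⟨⟨g, (mem_lsub E).2 (e ▸ List.mem_toFinset.1 c.2)⟩, Subtype.ext e⟩

theorem card_le_of_inv {H : Subgroup (Perm α)} {bs : List ℕ} {b F k : ℕ}
    (h : and (Nat.blt b n) (and (not (memb b bs)) (Nat.beq
      (cntb (fun i => and (not (xor (bit F i) (bit F b))) (not (memb i bs))) n) k)) = true)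
    (hF : ∀ g ∈ E.fixL H bs, E.Inv g F) :
    Nat.card (E.fixL H bs) ≤ k * Nat.card (E.fixL H (b :: bs)) := by
  classical
  haveI := Fintype.ofFinite α
  simp only [Bool.and_eq_true, Nat.blt_eq, beq_iff, Bool.not_eq_true'] at h
  obtain ⟨h1, h4, h7⟩ := h
  have e1 : Nat.card (MulAction.orbit (E.fixL H bs) (E.dec b)) ≤ k := by
    rw [← h7, E.cntb_eq_card, ← Nat.card_eq_finsetCard]
    refine Nat.card_le_card_of_injective (fun y => ⟨y.1, ?_⟩) fun a b e =>
      Subtype.ext (congrArg Subtype.val e :)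
    obtain ⟨_, g, rfl⟩ := y
    simp only [Finset.mem_filter, Finset.mem_univ, true_and, Bool.and_eq_true, Bool.not_eq_true']
    refine ⟨?_, ?_⟩
    · have := hF g g.2 (E.dec b)
      rw [E.enc_dec b h1] at this
      change (bit F (E.enc ((g : Perm α) (E.dec b))) ^^ bit F b) = false
      rw [this, Bool.xor_self]
    · rw [Bool.eq_false_iff]
      intro hy
      have := g.2.2 _ (memb_iff.1 hy)
      rw [E.dec_enc] at this
      have e : (g : Perm α) (E.dec b) = E.dec b := (g : Perm α).injective this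
      change memb (E.enc ((g : Perm α) (E.dec b))) bs = true at hy
      rw [e, E.enc_dec b h1, h4] at hy
      exact absurd hy (by simp)
  have e2 : Nat.card (MulAction.stabilizer (E.fixL H bs) (E.dec b)) =
      Nat.card (E.fixL H (b :: bs)) := by
    rw [← Subgroup.card_map_of_injective (E.fixL H bs).subtype_injective]
    congr 2
    ext g
    simp only [Subgroup.mem_map, MulAction.mem_stabilizer_iff, Enc.mem_fixL, List.forall_mem_cons]
    constructor
    · rintro ⟨g, hg, rfl⟩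
      exact ⟨g.2.1, hg, g.2.2⟩
    · rintro ⟨k1, k2, k3⟩
      exact ⟨⟨g, k1, k3⟩, k2, rfl⟩
  rw [← Nat.card_congr (MulAction.orbitProdStabilizerEquivGroup _ (E.dec b)), Nat.card_prod, e2]
  exact Nat.mul_le_mul_right _ e1

/-- `F` is the mask of the fixed points of `c`. -/
def isFix (w n c F : ℕ) : Bool := allb (fun i => not (xor (bit F i) (Nat.beq (app w c i) i))) n

theorem bit_iff_of_isFix {x : Perm α} {F : ℕ} (h : isFix w n (E.code x) F = true) (y : α) :
    bit F (E.enc y) = true ↔ x y = y := by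
  have := allb_iff.1 h _ (E.lt y)
  rw [E.app_code] at this
  rw [← E.enc_inj, ← beq_iff]
  revert this
  cases bit F (E.enc y) <;> cases Nat.beq (E.enc (x y)) (E.enc y) <;> simp

theorem inv_of_commute {x g : Perm α} {F : ℕ} (h : isFix w n (E.code x) F = true)
    (hc : Commute g x) : E.Inv g F := fun y => by
  rw [Bool.eq_iff_iff, bit_iff_of_isFix E h, bit_iff_of_isFix E h, ← Perm.mul_apply, ← hc.eq,
    Perm.mul_apply, g.injective.eq_iff]

theorem inv_of_fix {g : Perm α} {b : ℕ} (hb : b < n) (h : g (E.dec b) = E.dec b) :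
    E.Inv g (2 ^ b) := fun y => by
  rw [bit_eq, bit_eq, Nat.testBit_two_pow, Nat.testBit_two_pow, decide_eq_decide,
    ← E.enc_dec b hb, E.enc_inj, E.enc_inj, ← h, g.injective.eq_iff, h]

theorem fixes_orbm {h : Perm α} {gens : List ℕ} (hg : ∀ c ∈ gens, ∃ k, Commute h k ∧ E.code k = c)
    {b : ℕ} (hb : b < n) (hx : h (E.dec b) = E.dec b) (fuel : ℕ) :
    E.Fixes h (orbm w n gens (Nat.shiftLeft 1 b) fuel) := fun y hy => by
  rw [← E.enc_dec b hb] at hy
  obtain ⟨k, hk, rfl⟩ := E.orbm_spec (H := centralizer {h}) (fun c hc => by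
    obtain ⟨k, h1, h2⟩ := hg c hc
    exact ⟨k, mem_centralizer_singleton_iff.2 h1.symm, h2⟩) _ _ _ hy
  rw [← Perm.mul_apply, ← mem_centralizer_singleton_iff.1 hk, Perm.mul_apply, hx]

theorem fix_of_fixes {h : Perm α} {F : ℕ} (hF : E.Fixes h F) {bs : List ℕ}
    (hb : alll (fun b => and (Nat.blt b n) (bit F b)) bs = true) :
    ∀ b ∈ bs, h (E.dec b) = E.dec b := fun b k => by
  have := Bool.and_eq_true_iff.1 (alll_iff.1 hb b k)
  exact hF _ (by rw [E.enc_dec b (Nat.blt_eq ▸ this.1)]; exact this.2)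

theorem card_centralizer_sub {Γ : Type*} [Group Γ] {G : Subgroup Γ} (x : G) :
    Nat.card (centralizer ({x} : Set G)) =
      Nat.card (G ⊓ centralizer ({(x : Γ)} : Set Γ) : Subgroup Γ) := by
  rw [← card_map_of_injective G.subtype_injective]
  congr 2
  ext g
  simp only [mem_map, mem_centralizer_singleton_iff, mem_inf]
  exact ⟨by rintro ⟨g, h, rfl⟩; exact ⟨g.2, congrArg Subtype.val h⟩,
    fun h => ⟨⟨g, h.1⟩, Subtype.ext h.2, rfl⟩⟩

theorem length_dvd_card_centralizer {G : Subgroup (Perm α)} {t : ℕ → Bool} (ht : E.Tests G t)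
    (x : G) {L : List ℕ} (h : closedL w n L = true) (h1 : alll t L = true) (h2 : nodupb L = true)
    (h3 : alll (fun c => commc w n c (E.code x)) L = true) :
    L.length ∣ Nat.card (centralizer ({x} : Set G)) := by
  rw [card_centralizer_sub, ← card_lsub E ht h h1 h2]
  exact card_dvd_of_le fun g hg => ⟨lsub_le E ht h h1 hg,
    mem_centralizer_singleton_iff.2 (E.commute_of_commc (alll_iff.1 h3 _ hg))⟩

theorem isConj_of_code {G : Subgroup (Perm α)} {t : ℕ → Bool} (ht : E.Tests G t) {a b : G} {u : ℕ}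
    (hu : t u = true) (h : mulc w n u (E.code a) = mulc w n (E.code b) u) : IsConj a b := by
  obtain ⟨g, hg, rfl⟩ := ht u hu
  rw [← E.code_mul, ← E.code_mul, E.code_inj] at h
  exact isConj_iff.2 ⟨⟨g, hg⟩, Subtype.ext (mul_inv_eq_of_eq_mul h)⟩

def conjTo (w n x : ℕ) (U : List ℕ) (e : ℕ) : Bool :=
  anyl (fun u => Nat.beq (mulc w n u x) (mulc w n e u)) U

theorem isConj_of_conjTo {G : Subgroup (Perm α)} {t : ℕ → Bool} (ht : E.Tests G t) {a b : G}
    {U : List ℕ} (hu : alll t U = true) (h : conjTo w n (E.code a) U (E.code b) = true) :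
    IsConj a b := by
  obtain ⟨u, h1, h2⟩ := anyl_iff.1 h
  exact isConj_of_code E ht (alll_iff.1 hu u h1) (beq_iff.1 h2)

theorem cntc_of_isConj {G : Subgroup (Perm α)} {a b : G} (h : IsConj a b) :
    cntc w n (E.code a) (E.code a) = cntc w n (E.code b) (E.code b) := by
  obtain ⟨g, rfl⟩ := isConj_iff.1 h
  exact (E.cntc_conj g a a).symm

theorem exists_int_of_list {G : Subgroup (Perm α)} {t : ℕ → Bool} (ht : E.Tests G t)
    {χ : G → ℂ} (hχ : IsCharacter G χ) {d : ℕ} (hd : χ 1 = d) (x : G) {L U : List ℕ}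
    (h : closedL w n L = true) (h1 : alll t L = true) (h2 : nodupb L = true) (h3 : 1 < L.length)
    (hu : alll t U = true)
    (h4 : alll (fun e => or (Nat.beq e (idc w n)) (conjTo w n (E.code x) U e)) L = true) :
    ∃ c : ℤ, χ x = c ∧ (L.length : ℤ) ∣ d - c := by
  haveI := Fintype.ofFinite (lsub E L h)
  have hc := card_lsub E ht h h1 h2
  haveI : Nontrivial (lsub E L h) := Finite.one_lt_card_iff_nontrivial.1 (hc ▸ h3)
  rw [← hc, Nat.card_eq_fintype_card]
  refine exists_int_of_hom hχ hd (inclusion (lsub_le E ht h h1)) fun e he => ?_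
  rcases Bool.or_eq_true_iff.1 (alll_iff.1 h4 _ e.2) with k | k
  · exact absurd (Subtype.ext (E.code_inj.1 ((beq_iff.1 k).trans E.code_one.symm))) he
  · exact isConj_of_conjTo E ht hu k

theorem exists_int_of_list_inv {G : Subgroup (Perm α)} {t : ℕ → Bool} (ht : E.Tests G t)
    {χ : G → ℂ} (hχ : IsCharacter G χ) {d : ℕ} (hd : χ 1 = d) (x : G) {L U : List ℕ}
    (h : closedL w n L = true) (h1 : alll t L = true) (h2 : nodupb L = true) (h3 : 1 < L.length)
    (hu : alll t U = true)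
    (h4 : alll (fun e => or (Nat.beq e (idc w n)) (or (conjTo w n (E.code x) U e)
      (conjTo w n (E.code (x⁻¹ : G)) U e))) L = true) :
    ∃ s m : ℤ, ‖χ x‖ ^ 2 = m ∧ s ^ 2 ≤ 4 * m ∧ (L.length : ℤ) ∣ 2 * d - s ∧
      (L.length : ℤ) ∣ d ^ 2 - m := by
  haveI := Fintype.ofFinite (lsub E L h)
  have hc := card_lsub E ht h h1 h2
  haveI : Nontrivial (lsub E L h) := Finite.one_lt_card_iff_nontrivial.1 (hc ▸ h3)
  rw [← hc, Nat.card_eq_fintype_card]
  refine exists_int_of_hom_inv hχ hd (inclusion (lsub_le E ht h h1)) fun e he => ?_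
  rcases Bool.or_eq_true_iff.1 (alll_iff.1 h4 _ e.2) with k | k
  · exact absurd (Subtype.ext (E.code_inj.1 ((beq_iff.1 k).trans E.code_one.symm))) he
  · exact (Bool.or_eq_true_iff.1 k).imp (isConj_of_conjTo E ht hu) (isConj_of_conjTo E ht hu)

theorem charAt_sub {Γ : Type*} [Group Γ] {G : Subgroup Γ} [Finite G] {p : ℕ} (z : G)
    {Q : Subgroup Γ} (h0 : Q ≤ G) (h1 : IsPGroup p Q) (h2 : ∀ q ∈ Q, Commute q z)
    (h3 : ∀ g ∈ G, Commute g z → ∀ q ∈ Q, g * q * g⁻¹ ∈ Q)
    (h4 : ∀ g ∈ G, Commute g z → (∀ q ∈ Q, Commute g q) → ¬ p ∣ orderOf g → g = 1) :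
    CharAt p z :=
  ⟨Q.subgroupOf G, h1.comap_subtype, fun q hq => Subtype.ext (h2 q hq),
    fun g hg q hq => h3 g g.2 (congrArg Subtype.val hg) q hq,
    fun g hg hc ho => Subtype.ext (h4 g g.2 (congrArg Subtype.val hg)
      (fun q hq => congrArg Subtype.val (hc ⟨q, h0 hq⟩ hq)) (by rwa [orderOf_coe]))⟩

def certOK (w n z : ℕ) (cert : List (ℕ × ℕ)) (e : ℕ) : Bool :=
  anyl (fun s => cond (Nat.beq s.1 e) (Nat.beq (mulc w n s.2 z) (mulc w n e s.2)) false) cert

theorem isConj_of_certOK {G : Subgroup (Perm α)} {t : ℕ → Bool} (ht : E.Tests G t) {a b : G}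
    {cert : List (ℕ × ℕ)} (hu : alll (fun s => t s.2) cert = true)
    (h : certOK w n (E.code a) cert (E.code b) = true) : IsConj a b := by
  obtain ⟨u, h1, h2⟩ := anyl_iff.1 h
  refine isConj_of_code E ht (alll_iff.1 hu u h1) (beq_iff.1 ?_)
  revert h2
  cases Nat.beq u.1 (E.code b) <;> simp

theorem exists_conj_code {G : Subgroup (Perm α)} {us : List ℕ} (h : E.PcSpec us)
    (hT : IsSylowIn 2 (E.grp us) G) {P : ℕ → Bool}
    (hP : alll (fun e => or (not (Nat.beq (mulc w n e e) (idc w n))) (or (Nat.beq e (idc w n))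
      (P e))) (pcList w n us) = true) (z : G) (hz : orderOf z = 2) :
    ∃ y : G, IsConj y z ∧ P (E.code y) = true := by
  have hz' : orderOf (z : Perm α) = 2 := by rw [orderOf_coe, hz]
  obtain ⟨g, hg, hle⟩ := hT.exists_conj_mem (Q := zpowers (z : Perm α))
    (IsPGroup.of_card (n := 1) (by rw [Nat.card_zpowers, hz', pow_one])) (zpowers_le.2 z.2)
  have ho : orderOf (g * z * g⁻¹) = 2 := ((MulAut.conj g).orderOf_eq _).trans hz'
  refine ⟨⟨g, hg⟩ * z * ⟨g, hg⟩⁻¹, (isConj_iff.2 ⟨_, rfl⟩).symm, ?_⟩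
  have := alll_iff.1 hP _ (h.mem _ (hle _ (mem_zpowers _)))
  rw [← E.code_mul, ← pow_two, ← ho, pow_orderOf_eq_one, E.code_one, beq_iff.2 rfl] at this
  rcases Bool.or_eq_true_iff.1 this with k | k
  · exact absurd k (by simp)
  rcases Bool.or_eq_true_iff.1 k with k | k
  · rw [beq_iff, ← E.code_one, E.code_inj] at k
    rw [k, orderOf_one] at ho
    omega
  · exact k

theorem sq_le_card {G : Type*} [Group G] [Finite G] {χ : G → ℂ} (hχ : IsIrrCharacter G χ) {d : ℕ}
    (hd : χ 1 = d) : d ^ 2 ≤ Nat.card G := by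
  have := sum_norm_div_le hχ (fun _ : Unit => (1 : G)) (fun _ _ _ => rfl) (fun _ => Nat.card G)
    fun _ => card_le_card_group _
  rw [Finset.sum_const, Finset.card_univ, Fintype.card_unit, one_smul, hd, Complex.norm_natCast,
    div_le_one (by exact_mod_cast Nat.card_pos)] at this
  exact_mod_cast this

end Cfsg.Agent.H4
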