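import Mathlib
import Cfsg.Agent.L.MathieuSyl22
import Cfsg.Agent.L.MathieuSyl24
import Cfsg.Agent.H4.MatTools
import Cfsg.Agent.H4.MatData

/-! Centralisers of involutions in `M₂₂` and `M₂₄` are `2`-constrained. -/

set_option autoImplicit false
set_option maxHeartbeats 400000
set_option linter.unusedSectionVars false
set_option linter.style.haveILetI false

namespace Cfsg.Agent.H4.Mat

open Cfsg Cfsg.Agent.L Cfsg.Agent.L.PC Equiv Subgroup
open scoped Pointwise

theorem mem_L48 {g : Perm GolayPt} (hg : g ∈ GE.fixL M24 [15, 13, 1, 0, 23]) : GE.code g ∈ L48 :=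
  mem_list_of_card (tests24.fixL GE (by decide)) (by decide +kernel) (by decide +kernel)
    (card24_5.trans rfl) hg

/-- The pointwise stabiliser of the standard octad. -/
abbrev VV : Subgroup (Perm GolayPt) := GE.fixL M24 [0, 1, 13, 15, 17, 18, 19, 23]

theorem mem_L16 {g : Perm GolayPt} (hg : g ∈ VV) : GE.code g ∈ L16 := by
  have h1 := mem_L48 (g := g) ⟨hg.1, fun b hb => hg.2 b (by revert b; decide)⟩
  have h2 := alll_iff.1 (by decide +kernel :
    alll (fun c => or (not (Nat.beq (app 5 c 17) 17)) (memb c L16)) L48 = true) _ h1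
  rw [GE.app_code' g (by decide), hg.2 17 (by decide), GE.enc_dec 17 (by decide), beq_iff.2 rfl,
    Bool.not_true, Bool.false_or] at h2
  exact memb_iff.1 h2

theorem testsVV : GE.Tests VV (fixt 5 t24 [0, 1, 13, 15, 17, 18, 19, 23]) :=
  tests24.fixL GE (by decide)

theorem of_L16 {c : ℕ} (hc : c ∈ L16) : ∃ g ∈ VV, GE.code g = c :=
  testsVV c (alll_iff.1 (by decide +kernel) c hc)

theorem mul_self_of_VV {g : Perm GolayPt} (hg : g ∈ VV) : g * g = 1 := by
  have := alll_iff.1 (by decide +kernel :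
    alll (fun c => Nat.beq (mulc 5 24 c c) (idc 5 24)) L16 = true) _ (mem_L16 hg)
  rwa [beq_iff, ← GE.code_mul, ← GE.code_one, GE.code_inj] at this

theorem commute_of_VV {g h : Perm GolayPt} (hg : g ∈ VV) (hh : h ∈ VV) : Commute g h := by
  have e := inv_eq_of_mul_eq_one_right (mul_self_of_VV (mul_mem hg hh))
  rw [mul_inv_rev, inv_eq_of_mul_eq_one_right (mul_self_of_VV hg),
    inv_eq_of_mul_eq_one_right (mul_self_of_VV hh)] at e
  exact e.symm

theorem mem_VV {g : Perm GolayPt} : g ∈ VV ↔ g ∈ M24 ∧ GE.Fixes g 9347075 :=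
  ⟨fun h => ⟨h.1, GE.fixes_of_mem_fixL h⟩,
    fun h => ⟨h.1, fix_of_fixes GE h.2 (by decide +kernel)⟩⟩

theorem charAt_A {G : Subgroup (Perm GolayPt)} (h1 : G ≤ M24) (h2 : VV ≤ G) (z : G)
    (hz : GE.code z = z24) : CharAt 2 z := by
  have hF : isFix 5 24 (GE.code z) 9347075 = true := by rw [hz]; decide +kernel
  have hzV : (z : Perm GolayPt) ∈ VV :=
    mem_VV.2 ⟨h1 z.2, fun x hx => (bit_iff_of_isFix GE hF x).1 hx⟩
  refine charAt_sub z h2 (fun q => ⟨1, Subtype.ext (by simpa [pow_two] using mul_self_of_VV q.2)⟩)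
    (fun q hq => commute_of_VV hq hzV) (fun g hg hc q hq => ?_) fun g hg hc hq ho => ?_
  · refine mem_VV.2 ⟨mul_mem (mul_mem (h1 hg) hq.1) (inv_mem (h1 hg)), fun x hx => ?_⟩
    rw [Perm.mul_apply, Perm.mul_apply, (mem_VV.1 hq).2 _ (by
      rw [← inv_of_commute GE hF hc]; simpa using hx)]
    simp
  · have k1 := inv_of_commute GE hF hc (GE.dec 2)
    have k2 := allb_iff.1 (by decide +kernel : allb (fun i => or (bit 9347075 i)
      (anyl (fun c => Nat.beq (app 5 c 2) i) L16)) 24 = true) _ (GE.lt (g (GE.dec 2)))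
    rw [k1, show bit 9347075 (GE.enc (GE.dec 2)) = false by decide +kernel, Bool.false_or] at k2
    obtain ⟨c, hc, e⟩ := anyl_iff.1 k2
    obtain ⟨v, hv, rfl⟩ := of_L16 hc
    rw [beq_iff, GE.app_code' v (by decide), GE.enc_inj] at e
    have k3 : v⁻¹ * g = 1 := by
      refine GE.eq_one_of_fixes (GE.fixes_of_propOK (inv_of_okOct (mul_mem (inv_mem hv.1) (h1 hg)))
        (steps := [(0, [5275709, 7438406]), (1, [2162811]), (13, [2121909]), (15, [5275709]),
          (17, [1302533]), (18, [11100169]), (19, [6053905]), (23, [])]) ?_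
        (fixes_orbm GE (gens := L16) (b := 2) (fun c hc => ?_) (by decide) ?_ 1))
      · decide +kernel
      · obtain ⟨u, hu, rfl⟩ := of_L16 hc
        exact ⟨u, (commute_of_VV (inv_mem hv) hu).mul_left (hq u hu), rfl⟩
      · rw [Perm.mul_apply, ← e]; simp
    rw [inv_mul_eq_one] at k3
    subst k3
    have := orderOf_dvd_of_pow_eq_one ((pow_two v).trans (mul_self_of_VV hv))
    exact orderOf_eq_one_iff.1
      (((Nat.dvd_prime Nat.prime_two).1 this).resolve_right fun k => ho (k ▸ dvd_rfl))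

def sameT (i j : ℕ) : Bool := alll (fun m => not (xor (bit m i) (bit m j))) O5

theorem pow_four_of_inv {g z : Perm GolayPt} (hz : GE.code z = z2) (hc : Commute g z)
    (h : ∀ m ∈ O5, GE.Inv g m) : g ^ 4 = 1 := by
  have hs : ∀ x, sameT (GE.enc x) (GE.enc (g x)) = true := fun x =>
    alll_iff.2 fun m hm => by rw [h m hm x]; simp
  have key := (by decide +kernel : allb (fun x => allb (fun y => or (not (sameT x y))
    (or (Nat.beq y x) (or (Nat.beq y (app 5 z2 x)) (allb (fun u => or (not (sameT y u))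
      (or (Nat.beq u y) (or (Nat.beq u (app 5 z2 y)) (or (Nat.beq u x) (Nat.beq u (app 5 z2 x))))))
      24)))) 24) 24 = true)
  have hzz : ∀ x, z (z x) = x := fun x => by
    have : z * z = 1 := GE.code_inj.1 (by rw [GE.code_mul, GE.code_one, hz]; decide +kernel)
    rw [← Perm.mul_apply, this, Perm.one_apply]
  have hgz : ∀ x, g (z x) = z (g x) := fun x => by rw [← Perm.mul_apply, hc.eq, Perm.mul_apply]
  refine Equiv.ext fun x => ?_
  have k := allb_iff.1 (allb_iff.1 key _ (GE.lt x)) _ (GE.lt (g x))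
  rw [hs, ← hz] at k
  simp only [Bool.not_true, Bool.false_or, Bool.or_eq_true, beq_iff, GE.app_code, GE.enc_inj,
    allb_iff] at k
  change g (g (g (g x))) = x
  rcases k with k | k | k
  · simp only [k]
  · simp only [k, hgz, hzz]
  · have k' := k _ (GE.lt (g (g x)))
    simp only [hs, Bool.not_true, Bool.false_eq_true, false_or, GE.enc_inj] at k'
    rcases k' with k' | k' | k' | k'
    · simp only [g.injective k']
    · rw [← hgz] at k'
      simp only [g.injective k', hgz, hzz]
    · simp only [k']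
    · simp only [k', hgz, hzz]

/-- The normal `2`-subgroup of the centraliser of a fixed-point-free involution. -/
def QB (z : Perm GolayPt) : Subgroup (Perm GolayPt) where
  carrier := {q | q ∈ M24 ∧ Commute q z ∧ ∀ A ∈ GSup, A.card = 8 → z • A = A → q • A = A}
  one_mem' := ⟨one_mem _, Commute.one_left _, fun _ _ _ _ => one_smul _ _⟩
  mul_mem' := fun {a b} ha hb => ⟨mul_mem ha.1 hb.1, ha.2.1.mul_left hb.2.1, fun A h1 h2 h3 => by
    rw [mul_smul, hb.2.2 A h1 h2 h3, ha.2.2 A h1 h2 h3]⟩
  inv_mem' := fun {a} ha => ⟨inv_mem ha.1, ha.2.1.inv_left, fun A h1 h2 h3 =>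
    inv_smul_eq_iff.2 (ha.2.2 A h1 h2 h3).symm⟩

theorem qs_check : allSpan (fun m => or (not (and (Nat.beq (pop 24 m) 8) (invb 5 24 z2 m)))
    (alll (fun q => invb 5 24 q m) qs)) grows 0 = true := by decide +kernel

theorem charAt_B (z : M24) (hz : GE.code z = z2) : CharAt 2 z := by
  refine charAt_sub z (Q := QB z) (fun q hq => hq.1) (fun q => ⟨2, Subtype.ext ?_⟩)
    (fun q hq => hq.2.1) (fun g hg hc q hq => ⟨mul_mem (mul_mem hg hq.1) (inv_mem hg),
      (hc.mul_left hq.2.1).mul_left hc.inv_left, fun A h1 h2 h3 => ?_⟩) fun g hg hc hq ho => ?_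
  · refine pow_four_of_inv hz q.2.2.1 fun m hm => ?_
    have := alll_iff.1 (by decide +kernel : alll (fun m => and (isCode m)
      (and (Nat.beq (pop 24 m) 8) (invb 5 24 z2 m))) O5 = true) m hm
    simp only [Bool.and_eq_true, beq_iff, ← hz, invb_iff, ← GE.card_setOf] at this
    exact inv_iff_smul.2 (q.2.2.2 _ (setOf_mem this.1) this.2.1 (inv_iff_smul.1 this.2.2))
  · rw [mul_smul, mul_smul, hq.2.2 _ (smul_mem (inv_mem hg) h1) (by rwa [Finset.card_smul_finset])
      (by rw [← mul_smul, ← hc.inv_left.eq, mul_smul, h3]), smul_inv_smul]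
  · have h4 : g ^ 4 = 1 := by
      refine pow_four_of_inv hz hc fun m hm => ?_
      obtain ⟨c, hc1, hc2⟩ := anyl_iff.1 (alll_iff.1 (by decide +kernel :
        alll (fun m => anyl (fun c => isFix 5 24 c m) qs) O5 = true) m hm)
      have k := Bool.and_eq_true_iff.1 (alll_iff.1 (by decide +kernel :
        alll (fun c => and (t24 c) (commc 5 24 c z2)) qs = true) c hc1)
      obtain ⟨q, hq1, rfl⟩ := tests24 c k.1
      refine inv_of_commute GE hc2 (hq q ⟨hq1, GE.commute_of_commc (by rw [hz]; exact k.2), ?_⟩)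
      rintro _ ⟨v, hv, rfl⟩ h2 h3
      obtain ⟨m, hm, rfl⟩ := exists_spanL hv
      rw [support_wordOf] at h2 h3 ⊢
      have := of_allSpan qs_check hm
      rw [Nat.zero_xor, ← GE.card_setOf, h2, ← hz, invb_iff.2 (inv_iff_smul.2 h3), beq_iff.2 rfl,
        Bool.and_self, Bool.not_true, Bool.false_or] at this
      exact inv_iff_smul.1 (invb_iff.1 (alll_iff.1 this _ hc1))
    have := orderOf_dvd_of_pow_eq_one h4
    exact orderOf_eq_one_iff.1 (Nat.Coprime.eq_one_of_dvd
      (((Nat.prime_two.coprime_iff_not_dvd.2 ho).symm).pow_right 2) this)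

theorem inv22_check : alll (fun e => or (not (Nat.beq (mulc 5 24 e e) (idc 5 24)))
    (or (Nat.beq e (idc 5 24)) (certOK 5 24 z24 cert22 e))) (pcList 5 24 us22) = true := by
  decide +kernel

theorem inv24_check : alll (fun e => or (not (Nat.beq (mulc 5 24 e e) (idc 5 24)))
    (or (Nat.beq e (idc 5 24)) (or (certOK 5 24 z24 certA e) (certOK 5 24 z2 certB e))))
    (pcList 5 24 us24) = true := by
  decide +kernel

theorem charAt_of_isConj {G : Type*} [Group G] [Finite G] {p : ℕ} {a b : G} (h : IsConj a b)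
    (ha : CharAt p a) : CharAt p b := by
  obtain ⟨u, rfl⟩ := isConj_iff.1 h
  exact ha.conj u

theorem charAt22 (z : Spor.M22) (hz : orderOf z = 2) : CharAt 2 z := by
  have h := GE.pcSpec pc22
  obtain ⟨y, h1, h2⟩ := exists_conj_code GE h (GE.isSylowIn_of_cert tests22 h (by decide +kernel)
    (m := 3465) (by decide) (card_M22.trans (by decide +kernel))) inv22_check z hz
  obtain ⟨a, ha, e⟩ := tests22 z24 (by decide +kernel)
  refine charAt_of_isConj ((isConj_of_certOK GE tests22 (a := ⟨a, ha⟩) (cert := cert22)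
    (by decide +kernel) (by rw [e]; exact h2)).trans h1) (charAt_A (G := Spor.M22)
      (inf_le_left.trans inf_le_left) (fun g hg => ?_) _ e)
  rw [M22_eq]
  exact ⟨hg.1, fun b hb => hg.2 b (by revert b; decide)⟩

theorem charAt24 (z : M24) (hz : orderOf z = 2) : CharAt 2 z := by
  have h := GE.pcSpec pc24
  obtain ⟨y, h1, h2⟩ := exists_conj_code GE h (GE.isSylowIn_of_cert tests24 h (by decide +kernel)
    (m := 239085) (by decide) (card_M24.trans (by decide +kernel))) inv24_check z hz
  rcases Bool.or_eq_true_iff.1 h2 with k | k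
  · obtain ⟨a, ha, e⟩ := tests24 z24 (by decide +kernel)
    exact charAt_of_isConj ((isConj_of_certOK GE tests24 (a := ⟨a, ha⟩) (cert := certA)
      (by decide +kernel) (by rw [e]; exact k)).trans h1) (charAt_A le_rfl (fun g hg => hg.1) _ e)
  · obtain ⟨a, ha, e⟩ := tests24 z2 (by decide +kernel)
    exact charAt_of_isConj ((isConj_of_certOK GE tests24 (a := ⟨a, ha⟩) (cert := certB)
      (by decide +kernel) (by rw [e]; exact k)).trans h1) (charAt_B _ e)

end Cfsg.Agent.H4.Mat
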