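import Mathlib
import Cfsg.Agent.H4.MatInv

/-! `M₂₂` and `M₂₄` have no characters of `2`-defect zero. -/

set_option autoImplicit false
set_option maxHeartbeats 400000
set_option linter.unusedSectionVars false
set_option linter.style.haveILetI false

namespace Cfsg.Agent.H4.Mat

open Cfsg Cfsg.Agent.L Cfsg.Agent.L.PC Equiv Subgroup
open scoped Pointwise

theorem inv_octad {g : Perm GolayPt} (hg : g ∈ M24) {F m : ℕ}
    (h : and (okOct F m) (Nat.beq (Nat.land m F) F) = true) (hF : GE.Inv g F) : GE.Inv g m := by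
  simp only [okOct, Bool.and_eq_true, beq_iff, Nat.ble_eq, ← GE.card_setOf] at h
  obtain ⟨⟨h1, h2, h3⟩, h4⟩ := h
  rw [h4] at h3
  have h5 : GE.setOf F ⊆ GE.setOf m := fun x hx => by
    rw [Enc.mem_setOf, bit_eq] at hx ⊢
    rw [← h4] at hx
    change (m &&& F).testBit _ = true at hx
    rw [Nat.testBit_and, Bool.and_eq_true] at hx
    exact hx.1
  refine inv_iff_smul.2 (octad_eq (smul_mem hg (setOf_mem h1)) (setOf_mem h1)
    (by rw [Finset.card_smul_finset, h2]) h2 (h3.trans (Finset.card_le_card fun x hx => ?_)))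
  refine Finset.mem_inter.2 ⟨?_, h5 hx⟩
  rw [← inv_iff_smul.1 hF] at hx
  exact Finset.smul_finset_subset_smul_finset h5 hx

theorem card_last {x : Perm GolayPt} {c b fuel : ℕ} (hx : GE.code x = c) {bs cs L : List ℕ}
    (hb : b < 24) (hb' : b ∈ bs) (h1 : ∀ i ∈ [15, 13, 1, 0, 23], i ∈ bs ∨ i ∈ cs)
    (h2 : alll (fun i => and (Nat.blt i 24) (bit (orbm 5 24 [c] (Nat.shiftLeft 1 b) fuel) i)) cs
      = true)
    (h3 : alll (fun e => or (not (commc 5 24 e c)) (memb e L)) L48 = true) :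
    Nat.card (GE.fixL (M24 ⊓ centralizer {x}) bs) ≤ L.length := by
  refine card_le_length GE fun g hg => ?_
  have hc : Commute g x := mem_centralizer_singleton_iff.1 hg.1.2
  have k := fix_of_fixes GE (fixes_orbm GE (gens := [c])
    (List.forall_mem_singleton.2 ⟨x, hc, hx⟩) hb (hg.2 b hb') fuel) h2
  have k2 := alll_iff.1 h3 _ (mem_L48 (g := g) ⟨hg.1.1, fun i hi => (h1 i hi).elim (hg.2 i) (k i)⟩)
  rw [← hx, GE.commc_of_commute hc, Bool.not_true, Bool.false_or] at k2
  exact memb_iff.1 k2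

theorem card3_22 {x : Perm GolayPt} (hx : GE.code x = x3) :
    Nat.card (GE.fixL (M24 ⊓ centralizer {x}) [0, 23]) ≤ 36 := by
  have hF : isFix 5 24 (GE.code x) 9306121 = true := by rw [hx]; decide +kernel
  have h1 := card_le_of_inv GE (H := M24 ⊓ centralizer {x}) (bs := [0, 23]) (b := 3) (F := 9306121)
    (k := 4) (by decide +kernel)
    fun g hg => inv_of_commute GE hF (mem_centralizer_singleton_iff.1 hg.1.2)
  have h2 := card_le_of_inv GE (H := M24 ⊓ centralizer {x}) (bs := [3, 0, 23]) (b := 1)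
    (F := 9347075 ^^^ (9306121 ^^^ 2 ^ 3)) (k := 3) (by decide +kernel) fun g hg => by
      have k := inv_xor (inv_of_commute GE hF (mem_centralizer_singleton_iff.1 hg.1.2))
        (inv_of_fix GE (b := 3) (by decide) (hg.2 3 (by decide)))
      exact inv_xor (inv_octad hg.1.1 (by decide +kernel) k) k
  have h3 := card_last hx (bs := [1, 3, 0, 23]) (b := 1) (fuel := 2) (cs := [13, 15])
    (L := [984818244535754528103549039458486304, 971858974502914300550718576885079072,
      983149975557894155697772688621808672]) (by decide) (by decide) (by decide)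
    (by decide +kernel) (by decide +kernel)
  simp only [List.length_cons, List.length_nil] at h3
  omega

theorem card3_24 {x : Perm GolayPt} (hx : GE.code x = x3) :
    Nat.card (M24 ⊓ centralizer {x} : Subgroup _) ≤ 1080 := by
  have hF : isFix 5 24 (GE.code x) 9306121 = true := by rw [hx]; decide +kernel
  have h1 := card_le_of_inv GE (H := M24 ⊓ centralizer {x}) (bs := []) (b := 23) (F := 9306121)
    (k := 6) (by decide +kernel)
    fun g hg => inv_of_commute GE hF (mem_centralizer_singleton_iff.1 hg.1.2)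
  have h2 := card_le_of_inv GE (H := M24 ⊓ centralizer {x}) (bs := [23]) (b := 0) (F := 9306121)
    (k := 5) (by decide +kernel)
    fun g hg => inv_of_commute GE hF (mem_centralizer_singleton_iff.1 hg.1.2)
  have h3 := card3_22 hx
  rw [GE.fixL_nil] at h1
  omega

theorem card5_24 {x : Perm GolayPt} (hx : GE.code x = x5) :
    Nat.card (M24 ⊓ centralizer {x} : Subgroup _) ≤ 60 := by
  have hF : isFix 5 24 (GE.code x) 918016 = true := by rw [hx]; decide +kernel
  have h1 := card_le_of_inv GE (H := M24 ⊓ centralizer {x}) (bs := []) (b := 23) (F := 918016)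
    (k := 20) (by decide +kernel)
    fun g hg => inv_of_commute GE hF (mem_centralizer_singleton_iff.1 hg.1.2)
  have h3 := card_last hx (bs := [23]) (b := 23) (fuel := 4) (cs := [0, 1, 13, 15])
    (L := [984818244535754528103549039458486304, 963620513237518019234084926327826464,
      964685376923431050740082718070165536]) (by decide) (by decide) (by decide)
    (by decide +kernel) (by decide +kernel)
  simp only [List.length_cons, List.length_nil] at h3
  rw [GE.fixL_nil] at h1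
  omega

theorem eq_one_of_x23 {x g : Perm GolayPt} (hx : GE.code x = x23) (hc : Commute g x)
    (h0 : g (GE.dec 0) = GE.dec 0) : g = 1 :=
  GE.eq_one_of_fixes (GE.fixes_of_propOK (ok := fun _ _ => false) (fun _ _ h => absurd h (by simp))
    (steps := [(23, [])]) (by decide +kernel) (fixes_orbm GE (gens := [x23])
      (List.forall_mem_singleton.2 ⟨x, hc, hx⟩) (b := 0) (by decide) h0 22))

theorem card23 {x : Perm GolayPt} (hx : GE.code x = x23) :
    Nat.card (M24 ⊓ centralizer {x} : Subgroup _) ≤ 23 := by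
  have hF : isFix 5 24 (GE.code x) (2 ^ 23) = true := by rw [hx]; decide +kernel
  have h1 := card_le_of_inv GE (H := M24 ⊓ centralizer {x}) (bs := []) (b := 0) (F := 2 ^ 23)
    (k := 23) (by decide +kernel)
    fun g hg => inv_of_commute GE hF (mem_centralizer_singleton_iff.1 hg.1.2)
  have h2 : GE.fixL (M24 ⊓ centralizer {x}) [0] = ⊥ := eq_bot_iff.2 fun g hg =>
    eq_one_of_x23 hx (mem_centralizer_singleton_iff.1 hg.1.2) (hg.2 0 (by decide))
  rwa [GE.fixL_nil, h2, card_bot] at h1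

theorem code_inv_x23 {x : Perm GolayPt} (hx : GE.code x = x23) : GE.code x⁻¹ = x23i := by
  obtain ⟨y, hy⟩ := GE.exists_code (c := x23i) (by decide +kernel)
  rw [← hy, GE.code_inj, inv_eq_iff_mul_eq_one, ← GE.code_inj, GE.code_mul, GE.code_one, hx, hy]
  decide +kernel

theorem even_inter {A B : Finset GolayPt} (hA : A ∈ GSup) (hB : B ∈ GSup) :
    (A ∩ B).card % 2 = 0 := by
  have k1 := card_mem (symmDiff_mem hA hB)
  have k2 := card_symmDiff_add A B
  have k3 := card_mem hA
  have k4 := card_mem hB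
  simp only [List.mem_cons, List.not_mem_nil, or_false] at k1 k3 k4
  omega

theorem neg_not_mem {s : Perm GolayPt} (hs : GE.code s = neg) : s ∉ M24 := fun h => by
  have k := even_inter (smul_mem h (setOf_mem (m := 13062145) (by decide +kernel)))
    (setOf_mem (m := 4845570) (by decide +kernel))
  have e : s • GE.setOf 13062145 ∩ GE.setOf 4845570 =
      GE.setOf (imgm 5 24 (GE.code s) 13062145 &&& 4845570) := by
    ext y
    rw [Finset.mem_inter, ← Finset.inv_smul_mem_iff, Enc.mem_setOf, Enc.mem_setOf, Enc.mem_setOf,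
      bit_eq (_ &&& _), Nat.testBit_and, Bool.and_eq_true, ← bit_eq, ← bit_eq, GE.bit_imgm_code]
    rfl
  rw [e, GE.card_setOf, hs] at k
  exact absurd k (by decide +kernel)

theorem not_isConj_x23 {x : M24} (hx : GE.code x = x23) : ¬ IsConj x x⁻¹ := fun h => by
  obtain ⟨u, hu⟩ := isConj_iff.1 h
  have hu' : (u : Perm GolayPt) * x = (x : Perm GolayPt)⁻¹ * u :=
    mul_inv_eq_iff_eq_mul.1 (congrArg Subtype.val hu)
  have hF : isFix 5 24 (GE.code (x : Perm GolayPt)) (2 ^ 23) = true := by rw [hx]; decide +kernel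
  have h1 : bit (2 ^ 23) (GE.enc ((u : Perm GolayPt) (GE.dec 0))) = false := by
    rw [Bool.eq_false_iff, Ne, bit_iff_of_isFix GE hF, ← Perm.eq_inv_iff_eq, ← Perm.mul_apply,
      ← hu', Perm.mul_apply, Equiv.apply_eq_iff_eq, eq_comm, ← bit_iff_of_isFix GE hF]
    decide +kernel
  have k2 := allb_iff.1 (by decide +kernel : allb (fun i => or (bit (2 ^ 23) i)
    (anyl (fun c => and (and (t24 c) (commc 5 24 c x23)) (Nat.beq (app 5 c 0) i)) E23)) 24 = true)
    _ (GE.lt ((u : Perm GolayPt) (GE.dec 0)))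
  rw [h1, Bool.false_or] at k2
  obtain ⟨c, -, e⟩ := anyl_iff.1 k2
  simp only [Bool.and_eq_true, beq_iff] at e
  obtain ⟨v, hv, rfl⟩ := tests24 c e.1.1
  have hc : v * x = x * v := GE.commute_of_commc (by rw [hx]; exact e.1.2)
  have e2 := e.2
  rw [GE.app_code' v (by decide), GE.enc_inj] at e2
  obtain ⟨s, hs⟩ := GE.exists_code (c := neg) (by decide +kernel)
  have hsx : s * x = (x : Perm GolayPt)⁻¹ * s := by
    rw [← GE.code_inj, GE.code_mul, GE.code_mul, code_inv_x23 hx, hx, hs]; decide +kernel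
  have hs0 : s (GE.dec 0) = GE.dec 0 := by
    rw [← GE.enc_inj, ← GE.app_code' s (by decide), hs]; decide +kernel
  have k3 : s⁻¹ * (v⁻¹ * u) = 1 := by
    refine eq_one_of_x23 hx ?_ ?_
    · change s⁻¹ * (v⁻¹ * u) * x = x * (s⁻¹ * (v⁻¹ * u))
      calc s⁻¹ * (v⁻¹ * u) * x = s⁻¹ * (x * v)⁻¹ * u := by
            rw [mul_assoc, mul_assoc, hu']; group
        _ = s⁻¹ * ((x : Perm GolayPt)⁻¹ * s) * s⁻¹ * v⁻¹ * u := by rw [← hc]; group
        _ = _ := by rw [← hsx]; group
    · rw [Perm.mul_apply, Perm.mul_apply, ← e2, Perm.inv_eq_iff_eq, hs0]; simp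
  rw [inv_mul_eq_one] at k3
  exact neg_not_mem hs (k3 ▸ mul_mem (inv_mem hv) u.2)

theorem exists_odd_of_factorization {d N k m : ℕ} (hd : d ≠ 0) (hN : N = 2 ^ k * m) (hm : Odd m)
    (h : d.factorization 2 = N.factorization 2) : ∃ e, Odd e ∧ d = 2 ^ k * e := by
  have hm0 : m ≠ 0 := by rintro rfl; simp at hm
  rw [hN, Nat.factorization_mul (by positivity) hm0, Finsupp.add_apply,
    Nat.prime_two.factorization_pow, Finsupp.single_eq_same,
    Nat.factorization_eq_zero_of_not_dvd hm.not_two_dvd_nat, add_zero] at h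
  refine ⟨d / 2 ^ k, ?_, ?_⟩
  · rw [← h, ← Nat.not_even_iff_odd, even_iff_two_dvd]
    exact Nat.not_dvd_ordCompl Nat.prime_two hd
  · rw [← h]; exact (Nat.ordProj_mul_ordCompl_eq_self d 2).symm

theorem arith22 {e : ℕ} {c : ℤ} (he : Odd e) (h1 : (2 ^ 7 * e) ^ 2 ≤ 443520)
    (c2 : ((9 : ℕ) : ℤ) ∣ (2 ^ 7 * e : ℕ) - c)
    (c3 : ((2 ^ 7 * e : ℕ) * (4 : ℕ) : ℤ) ∣ (443520 : ℕ) * c) (c5 : c ^ 2 ≤ 36) : False := by
  have c6 : -6 ≤ c ∧ c ≤ 6 := by constructor <;> nlinarith
  have h2 : e < 6 := by nlinarith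
  obtain ⟨k, rfl⟩ := he
  obtain ⟨l, hl⟩ := c3
  push_cast at hl c2
  have : k = 0 ∨ k = 1 ∨ k = 2 := by omega
  rcases this with rfl | rfl | rfl <;> omega

theorem arith24 {e : ℕ} {c b s n : ℤ} (he : Odd e) (h1 : (2 ^ 10 * e) ^ 2 ≤ 244823040)
    (c2 : ((9 : ℕ) : ℤ) ∣ (2 ^ 10 * e : ℕ) - c)
    (c3 : ((2 ^ 10 * e : ℕ) * (8 : ℕ) : ℤ) ∣ (244823040 : ℕ) * c)
    (b2 : ((5 : ℕ) : ℤ) ∣ (2 ^ 10 * e : ℕ) - b)
    (b3 : ((2 ^ 10 * e : ℕ) * (4 : ℕ) : ℤ) ∣ (244823040 : ℕ) * b) (a2 : s ^ 2 ≤ 4 * n)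
    (a3 : ((23 : ℕ) : ℤ) ∣ 2 * (2 ^ 10 * e : ℕ) - s)
    (a4 : ((23 : ℕ) : ℤ) ∣ (2 ^ 10 * e : ℕ) ^ 2 - n)
    (c4 : (c : ℝ) ^ 2 / (1080 : ℕ) + b ^ 2 / (60 : ℕ) + n / (23 : ℕ) + n / (23 : ℕ) ≤ 1) :
    False := by
  have c5 : 23 * c ^ 2 + 414 * b ^ 2 + 2160 * n ≤ 24840 := by
    have : (23 * c ^ 2 + 414 * b ^ 2 + 2160 * n : ℝ) ≤ 24840 := by push_cast at c4; linarith
    exact_mod_cast this
  clear c4
  have h2 : e < 16 := by nlinarith
  clear h1
  have p1 := sq_nonneg b
  have p2 := sq_nonneg c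
  have p3 := sq_nonneg s
  have n6 : n ≤ 11 := by omega
  have s1 : -7 < s ∧ s < 7 := by constructor <;> nlinarith
  obtain ⟨k, rfl⟩ := he
  obtain ⟨l, hl⟩ := c3
  obtain ⟨l', hl'⟩ := b3
  obtain ⟨a, ha⟩ := a4
  push_cast at hl hl' ha a3 c2 b2
  obtain ⟨t, ht⟩ : (8 : ℤ) ∣ c := (by norm_num [Int.isCoprime_iff_gcd_eq_one] :
    IsCoprime (8 : ℤ) 239085).dvd_of_dvd_mul_left ⟨(2 * k + 1) * l, by linarith⟩
  obtain ⟨t', ht'⟩ : (4 : ℤ) ∣ b := (by norm_num [Int.isCoprime_iff_gcd_eq_one] :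
    IsCoprime (4 : ℤ) 239085).dvd_of_dvd_mul_left ⟨(2 * k + 1) * l', by linarith⟩
  clear hl hl'
  have hk : k = 0 ∨ k = 1 := by
    have : k < 8 := by omega
    clear c2 b2 c5
    interval_cases k <;> omega
  rcases hk with rfl | rfl
  · have e1 : n = 6 := by omega
    have e2 : 16 ≤ c ∨ c ≤ -16 := by omega
    have e3 : 4 ≤ b ∨ b ≤ -4 := by omega
    clear ha a3 c2 b2
    have e4 : 256 ≤ c ^ 2 := by rcases e2 with e | e <;> nlinarith
    have e5 : 16 ≤ b ^ 2 := by rcases e3 with e | e <;> nlinarith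
    omega
  · have e1 : n = 8 := by omega
    have e2 : 24 ≤ c ∨ c ≤ -24 := by omega
    clear ha a3 c2 b2
    have e4 : 576 ≤ c ^ 2 := by rcases e2 with e | e <;> nlinarith
    omega

theorem noDefectZero22 (χ : IrrCharacter Spor.M22) (d : ℕ) (hd : (χ : Spor.M22 → ℂ) 1 = d) :
    d.factorization 2 ≠ (Nat.card Spor.M22).factorization 2 := fun h => by
  have hd0 : d ≠ 0 := fun e => χ.2.apply_one_ne_zero (by rw [hd, e, Nat.cast_zero])
  obtain ⟨e, he, rfl⟩ := exists_odd_of_factorization (k := 7) (m := 3465) hd0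
    (card_M22.trans (by norm_num)) (by decide) h
  have h1 := sq_le_card χ.2 hd
  rw [card_M22] at h1
  obtain ⟨x, hx, hc⟩ := tests22 x3 (by decide +kernel)
  obtain ⟨c, c1, c2⟩ := exists_int_of_list GE tests22 χ.2.isCharacter hd ⟨x, hx⟩ (L := E9) (U := U9)
    (by decide +kernel) (by decide +kernel) (by decide +kernel) (by decide) (by decide +kernel)
    (by rw [hc]; decide +kernel)
  have c3 := dvd_of_central χ.2 hd c1 (length_dvd_card_centralizer GE tests22 ⟨x, hx⟩ (L := V4)
    (by decide +kernel) (by decide +kernel) (by decide +kernel) (by rw [hc]; decide +kernel))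
  have c4 := sum_norm_div_le χ.2 (fun _ : Unit => (⟨x, hx⟩ : Spor.M22)) (fun _ _ _ => rfl)
    (fun _ => 36) fun _ => by
      rw [card_centralizer_sub]
      refine le_trans (card_le_of_le fun g hg => ?_) (card3_22 hc)
      have := hg.1
      rw [SetLike.mem_coe, M22_eq] at this
      exact ⟨⟨this.1, hg.2⟩, this.2⟩
  rw [Finset.sum_const, Finset.card_univ, Fintype.card_unit, one_smul, c1, Complex.norm_intCast,
    sq_abs, div_le_one (by norm_num)] at c4
  rw [card_M22] at c3
  exact arith22 he h1 c2 c3 (by exact_mod_cast c4)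

theorem noDefectZero24 (χ : IrrCharacter M24) (d : ℕ) (hd : (χ : M24 → ℂ) 1 = d) :
    d.factorization 2 ≠ (Nat.card M24).factorization 2 := fun h => by
  have hd0 : d ≠ 0 := fun e => χ.2.apply_one_ne_zero (by rw [hd, e, Nat.cast_zero])
  obtain ⟨e, he, rfl⟩ := exists_odd_of_factorization (k := 10) (m := 239085) hd0
    (card_M24.trans (by norm_num)) (by decide) h
  have h1 := sq_le_card χ.2 hd
  rw [card_M24] at h1
  obtain ⟨x, hx, hc⟩ := tests24 x3 (by decide +kernel)
  obtain ⟨y, hy, hcy⟩ := tests24 x5 (by decide +kernel)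
  obtain ⟨z, hz, hcz⟩ := tests24 x23 (by decide +kernel)
  obtain ⟨c, c1, c2⟩ := exists_int_of_list GE tests24 χ.2.isCharacter hd ⟨x, hx⟩ (L := E9) (U := U9)
    (by decide +kernel) (by decide +kernel) (by decide +kernel) (by decide) (by decide +kernel)
    (by rw [hc]; decide +kernel)
  have c3 := dvd_of_central χ.2 hd c1 (length_dvd_card_centralizer GE tests24 ⟨x, hx⟩ (L := D8)
    (by decide +kernel) (by decide +kernel) (by decide +kernel) (by rw [hc]; decide +kernel))
  obtain ⟨b, b1, b2⟩ := exists_int_of_list GE tests24 χ.2.isCharacter hd ⟨y, hy⟩ (L := E5) (U := U5)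
    (by decide +kernel) (by decide +kernel) (by decide +kernel) (by decide) (by decide +kernel)
    (by rw [hcy]; decide +kernel)
  have b3 := dvd_of_central χ.2 hd b1 (length_dvd_card_centralizer GE tests24 ⟨y, hy⟩ (L := W4)
    (by decide +kernel) (by decide +kernel) (by decide +kernel) (by rw [hcy]; decide +kernel))
  obtain ⟨s, n, a1, a2, a3, a4⟩ := exists_int_of_list_inv GE tests24 χ.2.isCharacter hd ⟨z, hz⟩
    (L := E23) (U := U23) (by decide +kernel) (by decide +kernel) (by decide +kernel) (by decide)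
    (by decide +kernel) (by rw [coe_inv, code_inv_x23 hcz, hcz]; decide +kernel)
  have n1 : cntc 5 24 (GE.code x) (GE.code x) = 6 := by rw [hc]; decide +kernel
  have n2 : cntc 5 24 (GE.code y) (GE.code y) = 4 := by rw [hcy]; decide +kernel
  have n3 : cntc 5 24 (GE.code z) (GE.code z) = 1 := by rw [hcz]; decide +kernel
  have n4 : cntc 5 24 (GE.code z⁻¹) (GE.code z⁻¹) = 1 := by rw [code_inv_x23 hcz]; decide +kernel
  have n5 := not_isConj_x23 (x := ⟨z, hz⟩) hcz
  have c4 := sum_norm_div_le χ.2 ![(⟨x, hx⟩ : M24), ⟨y, hy⟩, ⟨z, hz⟩, ⟨z, hz⟩⁻¹] (fun i j k => by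
      have k' := cntc_of_isConj GE k
      fin_cases i <;> fin_cases j <;>
        first | rfl | exact absurd k n5 | exact absurd k.symm n5 | (simp at k'; omega))
    ![1080, 60, 23, 23] fun i => by
      rw [card_centralizer_sub]
      fin_cases i
      · exact card3_24 hc
      · exact card5_24 hcy
      · exact card23 hcz
      · refine le_trans (card_le_of_le fun g hg => ?_) (card23 hcz)
        exact ⟨hg.1, mem_centralizer_singleton_iff.2
          (Commute.inv_right_iff.1 (mem_centralizer_singleton_iff.1 hg.2))⟩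
  simp only [Fin.sum_univ_four, Matrix.cons_val, c1, b1, χ.2.isCharacter.apply_inv,
    Complex.norm_conj, a1, Complex.norm_intCast, sq_abs] at c4
  rw [card_M24] at c3 b3
  exact arith24 he h1 c2 c3 b2 b3 a2 a3 a4 c4

end Cfsg.Agent.H4.Mat
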