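import Cfsg.Agent.H4.BLift

/-! The real vector criterion for the `k(GV)` problem. -/

set_option autoImplicit false
set_option linter.unusedSectionVars false
set_option linter.style.haveILetI false

namespace Cfsg.Agent.H4

open Cfsg Cfsg.Agent.H3 Cfsg.Agent.H5 Polynomial Module Finset
open scoped ComplexConjugate

theorem prod_one_sub_mul {R : Type*} [CommRing R] [IsDomain R] {ζ : R} {n : ℕ}
    (hζ : IsPrimitiveRoot ζ n) (hn : 0 < n) (y : R) : ∏ i ∈ range n, (1 - ζ ^ i * y) = 1 - y ^ n := by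
  simpa [eval_prod] using congrArg (eval 1) (X_pow_sub_C_eq_prod hζ hn (rfl : y ^ n = _)).symm

/-- Half of the units modulo `p ^ 2`. -/
def halfT (p : ℕ) : Finset ℕ := (range (p ^ 2)).filter fun a => ¬p ∣ a ∧ 2 * a < p ^ 2

variable {p : ℕ} [hp : Fact p.Prime]

theorem prod_halfT_mul {R : Type*} [CommRing R] [IsDomain R] {ζ : R} (hζ : IsPrimitiveRoot ζ (p ^ 2))
    (y : R) : (∏ a ∈ halfT p, (1 - ζ ^ a * y) * (1 - ζ ^ (p ^ 2 - a) * y)) * (1 - y ^ p) =
      1 - (y ^ p) ^ p := by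
  have h0 := hp.out.pos
  have h1 : ∀ a, p ∣ p ^ 2 - a → a ≤ p ^ 2 → p ∣ a := fun a h h' =>
    (Nat.dvd_sub_iff_right h' (dvd_pow_self p two_ne_zero)).1 h
  rw [← pow_mul, ← sq, ← prod_one_sub_mul hζ (pow_pos h0 2), ← prod_one_sub_mul
    (hζ.pow (pow_pos h0 2) (sq p)) h0, ← prod_filter_not_mul_prod_filter (range (p ^ 2)) (p ∣ ·),
    ← prod_filter_mul_prod_filter_not (filter _ _) (2 * · < p ^ 2), filter_filter, filter_filter,
    prod_mul_distrib]
  refine congrArg₂ _ (congrArg₂ _ rfl ?_) ?_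
  · refine prod_nbij' (p ^ 2 - ·) (p ^ 2 - ·) (fun a ha => ?_) (fun a ha => ?_) (fun a ha => ?_)
      (fun a ha => ?_) fun _ _ => rfl <;> simp only [halfT, mem_filter, mem_range] at ha ⊢
    · have : a ≠ 0 := by rintro rfl; exact ha.2.1 (dvd_zero _)
      exact ⟨by omega, fun h => ha.2.1 (h1 a h ha.1.le), by omega⟩
    · have : a ≠ 0 := by rintro rfl; exact ha.2.1 (dvd_zero _)
      have : 2 * a ≠ p ^ 2 := fun e => by
        rcases (Nat.Prime.dvd_mul hp.out).1 (e ▸ dvd_pow_self p two_ne_zero) with h | h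
        · obtain rfl := (Nat.prime_dvd_prime_iff_eq hp.out Nat.prime_two).1 h
          omega
        · exact ha.2.1 h
      exact ⟨by omega, fun h => ha.2.1 (h1 a h ha.1.le), by omega⟩
    · omega
    · omega
  · refine prod_nbij' (p * ·) (· / p) (fun a ha => ?_) (fun a ha => ?_) (fun a ha => ?_)
      (fun a ha => ?_) (fun _ _ => by rw [pow_mul]) <;> simp only [mem_filter, mem_range] at ha ⊢
    · exact ⟨by rw [sq]; exact Nat.mul_lt_mul_of_pos_left ha h0, dvd_mul_right _ _⟩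
    · exact Nat.div_lt_of_lt_mul (sq p ▸ ha.1)
    · exact Nat.mul_div_cancel_left _ h0
    · exact Nat.mul_div_cancel' ha.2

theorem prod_halfT {ζ : ℂ} (hζ : IsPrimitiveRoot ζ (p ^ 2)) (y : ℂ) :
    ∏ a ∈ halfT p, (1 - ζ ^ a * y) * (1 - ζ ^ (p ^ 2 - a) * y) = ∑ j ∈ range p, (y ^ p) ^ j := by
  have h := prod_halfT_mul (hζ.map_of_injective (f := (C : ℂ →+* ℂ[X])) C_injective) X
  rw [← geom_sum_mul_neg (X ^ p)] at h
  have h0 : (1 - X ^ p : ℂ[X]) ≠ 0 := fun e => by simpa [hp.out.ne_zero] using congrArg (eval 0) e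
  have h1 := congrArg (evalRingHom y) (mul_right_cancel₀ h0 h)
  simpa only [map_prod, map_sum, map_mul, map_sub, map_one, map_pow, coe_evalRingHom, eval_C,
    eval_X] using h1

theorem mul_conj_halfT {ζ : ℂ} (hζ : IsPrimitiveRoot ζ (p ^ 2)) {d m : ℕ} (hm : 0 < m) {ε : Fin d → ℂ}
    (h1 : ∀ i, ε i ^ m = 1) (h2 : ∀ f : ℂ → ℂ, ∏ i, f (ε i)⁻¹ = ∏ i, f (ε i)) :
    (∏ a ∈ halfT p, ∏ i, (1 - ζ ^ a * ε i)) * conj (∏ a ∈ halfT p, ∏ i, (1 - ζ ^ a * ε i)) =
      ∏ i, ∑ j ∈ range p, (ε i ^ p) ^ j := by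
  simp only [← prod_halfT hζ, prod_mul_distrib, map_prod, map_sub, map_one, map_mul, map_pow,
    ← inv_eq_conj_of_pow_eq_one hm (h1 _),
    ← inv_eq_conj_of_pow_eq_one (pow_pos hp.out.pos 2) hζ.pow_eq_one]
  rw [prod_comm, prod_comm (s := univ) (t := halfT p), prod_comm (s := univ) (t := halfT p)]
  congr 1
  refine prod_congr rfl fun a ha => (h2 fun y => 1 - ζ⁻¹ ^ a * y).trans ?_
  rw [pow_sub₀ _ (hζ.ne_zero (pow_pos hp.out.pos 2).ne') (mem_range.1 (mem_filter.1 ha).1).le,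
    hζ.pow_eq_one, one_mul, inv_pow]

theorem prod_geom_eq {d m : ℕ} (hm : ¬p ∣ m) {ε : Fin d → ℂ} (h1 : ∀ i, ε i ^ m = 1)
    (h2 : ∀ f : ℂ → ℂ, ∏ i, f (ε i ^ p) = ∏ i, f (ε i)) :
    (∏ i, ∑ j ∈ range p, (ε i ^ p) ^ j) * p ^ Nat.card {i // ε i ≠ 1} = p ^ d := by
  classical
  let f : ℂ → ℂ := fun y => if y = 1 then 1 else 1 - y
  have h3 : ∀ y : ℂ, y ^ m = 1 → (y ^ p = 1 ↔ y = 1) := fun y hy => ⟨fun h => by
    simpa [((Nat.Prime.coprime_iff_not_dvd hp.out).2 hm).gcd_eq_one] using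
      pow_gcd_eq_one.2 ⟨h, hy⟩, fun h => by rw [h, one_pow]⟩
  have h4 : ∀ i, (∑ j ∈ range p, (ε i ^ p) ^ j) * (if ε i ≠ 1 then (p : ℂ) else 1) * f (ε i ^ p) =
      p * f ((ε i ^ p) ^ p) := fun i => by
    simp only [f, h3 _ (h1 i), h3 (ε i ^ p) (by rw [pow_right_comm, h1, one_pow])]
    by_cases h : ε i = 1
    · simp [h]
    · rw [if_pos h, if_neg h, if_neg h, ← geom_sum_mul_neg (ε i ^ p)]
      ring
  have h5 := prod_congr rfl fun i (_ : i ∈ univ) => h4 i
  rw [prod_mul_distrib, prod_mul_distrib, prod_mul_distrib, h2 fun y => f (y ^ p), prod_ite,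
    prod_const, prod_const_one, mul_one, prod_const, card_fin, ← Fintype.card_subtype,
    ← Nat.card_eq_fintype_card] at h5
  refine mul_right_cancel₀ (prod_ne_zero_iff.2 fun i _ => ?_) h5
  simp only [f]
  split_ifs with h
  exacts [one_ne_zero, sub_ne_zero.2 (Ne.symm h)]

theorem exists_gamma {H : Type*} [Group H] [Finite H]
    (hH : ¬p ∣ Nat.card H) {U : Type*} [AddCommGroup U] [Module (ZMod p) U] [Finite U]
    (ρ : Representation (ZMod p) H U) (hsd : ∀ h, (ρ h⁻¹).charpoly = (ρ h).charpoly)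
    (hf : ∀ h, ρ h = 1 → h = 1) {C : Type*} [Group C] [Finite C] (μ : C →* ℂ) (M : Ideal AlgInt)
    [M.IsMaximal] [CharP (Res M) p] : ∃ Γ, IsGeneralizedCharacter (H × C) Γ ∧
      ∀ c, IsPrimitiveRoot (μ c) (Nat.card H * p ^ 2) → red M (Γ (1, c)) ≠ 0 ∧
        ∀ h, (h ≠ 1 → red M (Γ (h, c)) = 0) ∧
          ‖Γ (h, c)‖ ^ 2 ≤ Nat.card (LinearMap.range (ρ h - 1)) := by
  classical
  obtain ⟨n, σ, hσ⟩ := exists_brauer_lift hH ρ hsd
  haveI := Fintype.ofFinite (C × H)
  choose Λ h1 h2 using fun j : ℕ => exists_gen_det (twistRep σ (μ ^ j))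
  let Γ : H × C → ℂ := ∏ a ∈ halfT p, ∏ b ∈ Ico 1 (Nat.card H),
    fun q => Λ (p ^ 2 * b + Nat.card H * a) (q.2, q.1)
  have hΓ : IsGeneralizedCharacter (H × C) Γ :=
    prod_induction _ _ (fun _ _ => IsGeneralizedCharacter.mul) isGeneralizedCharacter_one fun a _ =>
      prod_induction _ _ (fun _ _ => IsGeneralizedCharacter.mul) isGeneralizedCharacter_one
        fun b _ => (h1 _).comp MulEquiv.prodComm.toMonoidHom
  refine ⟨Γ, hΓ, fun c hc => ?_⟩
  have hm := Nat.card_pos (α := H)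
  have hN := mul_pos hm (pow_pos hp.out.pos 2)
  have hη := hc.pow hN (mul_comm _ _)
  have hζ := hc.pow hN rfl
  have key : ∀ h, ∃ r : ℕ, Γ (h, c) * conj (Γ (h, c)) = p ^ r ∧ (h = 1 → r = 0) ∧
      (h ≠ 1 → red M (Γ (h, c)) = 0) ∧ p ^ r ≤ Nat.card (LinearMap.range (ρ h - 1)) := fun h => by
    obtain ⟨d, b, ε, k1, k2, k3, k4, k5, k6⟩ := hσ h
    have e1 : Γ (h, c) = ∏ a ∈ halfT p, ∏ i, ∏ j ∈ Ico 1 (Nat.card H),
        (1 - (μ c ^ p ^ 2) ^ j * ((μ c ^ Nat.card H) ^ a * ε i)) := by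
      simp only [Γ, Finset.prod_apply]
      refine prod_congr rfl fun a _ => (prod_congr rfl fun j _ => h2 _ _ b _ fun i => ?_).trans
        prod_comm
      simp [twistRep, k2, pow_add, pow_mul, mul_smul]
    generalize μ c ^ p ^ 2 = η at hη e1
    generalize μ c ^ Nat.card H = ζ at hζ e1
    have e2 : ∀ a i, (1 - ζ ^ a * ε i) * ∏ j ∈ Ico 1 (Nat.card H), (1 - η ^ j * (ζ ^ a * ε i)) =
        1 - (ζ ^ Nat.card H) ^ a * 1 := fun a i => by
      have := prod_one_sub_mul hη hm (ζ ^ a * ε i)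
      rwa [range_eq_Ico, prod_eq_prod_Ico_succ_bot hm, pow_zero, one_mul, mul_pow, k1,
        pow_right_comm] at this
    refine ⟨_, ?_, fun e => ?_, fun e => ?_, k5⟩
    · have e3 := mul_conj_halfT (hζ.pow_of_coprime _ (((Nat.Prime.coprime_iff_not_dvd hp.out).2
        hH).symm.pow_right 2)) hm (ε := fun _ : Fin d => 1) (fun _ => one_pow _) (by simp)
      have e4 : ∏ a ∈ halfT p, ∏ _i : Fin d, (1 - (ζ ^ Nat.card H) ^ a * 1) =
          (∏ a ∈ halfT p, ∏ i, (1 - ζ ^ a * ε i)) * Γ (h, c) := by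
        simp only [e1, ← prod_mul_distrib, e2]
      rw [e4, map_mul, mul_mul_mul_comm, mul_conj_halfT hζ hm k1 k3] at e3
      simp only [one_pow, sum_const, card_range, nsmul_eq_mul, mul_one, prod_const, card_fin] at e3
      have e5 := prod_geom_eq hH k1 k4
      refine mul_left_cancel₀ (fun e => ?_) (e3.trans e5.symm)
      rw [e, zero_mul] at e5
      exact pow_ne_zero _ (Nat.cast_ne_zero.2 hp.out.ne_zero) e5.symm
    · subst e
      refine Nat.card_eq_zero.2 (Or.inl ⟨fun i => i.2 ?_⟩)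
      have := k2 i
      rw [map_one, End.one_apply] at this
      exact smul_left_injective ℂ (b.ne_zero _) (this.symm.trans (one_smul _ _).symm)
    · obtain ⟨i, hi⟩ := not_forall.1 fun h' => e (hf h (k6 h'))
      have m1 := fun i => mem_locRing_of_isIntegral M (isIntegral_of_pow_eq_one hm (k1 i))
      have m2 := mem_locRing_of_isIntegral M (hη.isIntegral hm)
      have m3 := mem_locRing_of_isIntegral M (hζ.isIntegral (pow_pos hp.out.pos 2))
      have m4 : ∀ a i, ∏ j ∈ Ico 1 (Nat.card H), (1 - η ^ j * (ζ ^ a * ε i)) ∈ locRing M :=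
        fun a i => prod_mem fun j _ => sub_mem (one_mem _) (mul_mem (pow_mem m2 _)
          (mul_mem (pow_mem m3 _) (m1 i)))
      rw [e1, red_prod _ fun a _ => prod_mem fun i _ => m4 a i]
      refine prod_eq_zero (i := 1) ?_ ?_
      · have := hp.out.two_le
        exact mem_filter.2 ⟨mem_range.2 (by nlinarith), hp.out.not_dvd_one, by nlinarith⟩
      rw [red_prod _ fun i _ => m4 1 i]
      refine prod_eq_zero (mem_univ i) ?_
      have := congrArg (red M) (e2 1 i)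
      rw [red_mul _ (m4 1 i), pow_one, pow_one, mul_one, red_sub (one_mem _) (pow_mem m3 _),
        red_sub (one_mem _) (mul_mem m3 (m1 i)), red_mul m3 (m1 i), red_pow m3,
        red_eq_one_of_pow_pow hζ.pow_eq_one, red_one, one_pow, sub_self, one_mul, mul_eq_zero] at this
      · rw [pow_one]
        exact this.resolve_left fun e => hi (eq_one_of_red_eq_one hH (k1 i) (sub_eq_zero.1 e).symm)
      · exact sub_mem (one_mem _) (mul_mem (pow_mem m3 _) (m1 i))
  refine ⟨fun e => ?_, fun h => ?_⟩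
  · obtain ⟨r, k1, k2, -⟩ := key 1
    have := congrArg (red M) k1
    rw [red_mul (mem_locRing_of_isIntegral M (hΓ.isIntegral _))
      (mem_locRing_of_isIntegral M (hΓ.conj.isIntegral _)), e, k2 rfl] at this
    simp at this
  · obtain ⟨r, k1, -, k2, k3⟩ := key h
    rw [Complex.mul_conj'] at k1
    exact ⟨k2, (show ‖Γ (h, c)‖ ^ 2 = (p : ℝ) ^ r by exact_mod_cast k1).trans_le (by exact_mod_cast k3)⟩

theorem isGen_classInner_fst {A B : Type*} [Group A] [Fintype A] [Group B] [Fintype B]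
    {θ : A × B → ℂ} (hθ : IsGeneralizedCharacter (A × B) θ) {φ : A → ℂ}
    (hφ : IsGeneralizedCharacter A φ) :
    IsGeneralizedCharacter B fun b => classInner (fun a => θ (a, b)) φ := by
  simpa only [classInner, Pi.mul_apply, MonoidHom.coe_fst] using
    isGen_avg_fst (hθ.mul (hφ.conj.comp (MonoidHom.fst A B)))

/-- Powers of an element, indexed by residues. -/
def zmodPow {G : Type*} [Monoid G] {N : ℕ} [NeZero N] (y : G) (hy : y ^ N = 1) :
    Multiplicative (ZMod N) →* G where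
  toFun a := y ^ a.toAdd.val
  map_one' := by simp
  map_mul' a b := by rw [toAdd_mul, ZMod.val_add, ← pow_eq_pow_mod _ hy, pow_add]

open Subgroup in
theorem kgv_of_selfDual {X : Type*} [Group X] [Finite X] (V : Subgroup X)
    [V.Normal] (hVexp : ∀ v ∈ V, v ^ p = 1) (hidx : ¬ p ∣ V.index)
    (hself : centralizer (V : Set X) = V) {G : Subgroup X} (hGV : V.IsComplement' G) {v : X}
    (hv : v ∈ V) {H : Subgroup X} (hHe : ∀ x, x ∈ H ↔ x ∈ G ∧ Commute x v)
    {U : Type*} [AddCommGroup U] [Module (ZMod p) U] [Finite U] (ρ : Representation (ZMod p) H U)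
    (hsd : ∀ h, (ρ h⁻¹).charpoly = (ρ h).charpoly) (hf : ∀ h, ρ h = 1 → h = 1)
    (j : U → X) (hj : Function.Injective j) (hjV : ∀ u, j u ∈ V)
    (hρ : ∀ h u, j (ρ h u - u) = h * j u * h⁻¹ * (j u)⁻¹) :
    Nat.card (ConjClasses X) ≤ Nat.card V := by
  classical
  obtain ⟨hc, hcop, hdeg⟩ := kgv_setting p V hVexp hidx hself hGV
  haveI := Fintype.ofFinite X
  haveI := Fintype.ofFinite H
  have hH : ¬p ∣ Nat.card H := fun h =>
    hidx (hGV.symm.index_eq_card ▸ h.trans (card_dvd_of_le fun x hx => ((hHe x).1 hx).1))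
  obtain ⟨M, hM⟩ := exists_isPModular p
  haveI := hM.2.1
  haveI := charP_res hM
  obtain ⟨N, hNe⟩ : ∃ N, Nat.card H * p ^ 2 = N := ⟨_, rfl⟩
  have hN : 0 < N := hNe ▸ mul_pos (Nat.card_pos (α := H)) (pow_pos hp.out.pos 2)
  have hpN : p ∣ N := hNe ▸ (dvd_pow_self p two_ne_zero).mul_left _
  haveI : NeZero N := ⟨hN.ne'⟩
  obtain ⟨z, hz⟩ : ∃ z : ℂ, IsPrimitiveRoot z N := ⟨_, Complex.isPrimitiveRoot_exp _ hN.ne'⟩
  let μ := zmodPow _ hz.pow_eq_one
  let α := zmodPow (N := N) v (by obtain ⟨k, rfl⟩ := hpN; rw [pow_mul, hVexp v hv, one_pow])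
  obtain ⟨Γ, hΓ, hΓ'⟩ := exists_gamma hH ρ hsd hf μ M
  rw [hNe] at hΓ'
  have hα : ∀ a (h : H), Commute (α a) (h : X) := fun a h => ((hHe h).1 h.2).2.symm.pow_left _
  let S := univ.filter fun c => IsPrimitiveRoot (μ c) N
  obtain ⟨Θ, hΘ, hΘ'⟩ : ∃ Θ : IrrCharacter X → _ → ℂ, (∀ χ, IsGeneralizedCharacter _ (Θ χ)) ∧
      ∀ χ q, Θ χ q = Γ q * χ.1 (α q.2 * q.1) := ⟨fun χ => Γ * fun q => χ.1 (α q.2 * q.1), fun χ =>
    hΓ.mul ((χ.2.isGeneralizedCharacter.comp (α.noncommCoprod H.subtype hα)).comp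
      MulEquiv.prodComm.toMonoidHom), fun _ _ => rfl⟩
  have h1 : ∀ (χ : IrrCharacter X) (φ : IrrCharacter H), (S.card : ℝ) ≤
      ∑ c ∈ S, ‖classInner (fun h => Θ χ (h, c)) φ‖ ^ 2 := fun χ φ => by
    refine card_le_sum_norm_sq (isGen_classInner_fst (hΘ χ) φ.2.isGeneralizedCharacter) S
      (fun m hm c hc => ?_) fun c hc e => ?_
    · rw [mem_filter] at hc ⊢
      exact ⟨mem_univ _, map_pow μ c m ▸ hc.2.pow_of_coprime m (by simpa using hm)⟩
    · obtain ⟨k1, k2⟩ := hΓ' c (mem_filter.1 hc).2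
      have k3 := congrArg (red M) ((mul_eq_zero.1 e).resolve_left (inv_ne_zero (natCard_ne_zero_C H)))
      have m1 := fun q => mem_locRing_of_isIntegral M (hΓ.isIntegral q)
      have m2 := fun q => mem_locRing_of_isIntegral M (χ.2.isCharacter.isIntegral q)
      have m3 := fun q => mem_locRing_of_isIntegral M (φ.2.isCharacter.conj.isIntegral q)
      simp only [hΘ'] at k3
      obtain ⟨d, -, hd⟩ := χ.2.exists_apply_one
      rw [red_sum _ fun h _ => mul_mem (mul_mem (m1 _) (m2 _)) (m3 _), sum_eq_single 1 (fun h _ e => by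
        rw [red_mul (mul_mem (m1 _) (m2 _)) (m3 _), red_mul (m1 _) (m2 _), (k2 h).1 e, zero_mul,
          zero_mul]) (by simp), red_mul (mul_mem (m1 _) (m2 _)) (m3 _), red_mul (m1 _) (m2 _),
        OneMemClass.coe_one, mul_one, red_char_of_pow χ.2.isCharacter (k := 1)
          (by rw [pow_one]; exact hVexp _ (pow_mem hv _)), hd, ← φ.2.cast_charDegree, map_natCast,
        red_zero] at k3
      exact mul_ne_zero (mul_ne_zero k1 (red_natCast_ne_zero (hdeg χ χ.2 d hd)))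
        (red_natCast_ne_zero fun h => hH (h.trans φ.2.charDegree_dvd_card)) k3
  have h2 : ∀ c ∈ S, ∑ χ : IrrCharacter X, ∑ φ : IrrCharacter H,
      ‖classInner (fun h => Θ χ (h, c)) φ‖ ^ 2 ≤ Nat.card V * Nat.card (ConjClasses H) := fun c hc => by
    have k1 : ∀ χ, ∑ φ : IrrCharacter H, ‖classInner (fun h => Θ χ (h, c)) φ‖ ^ 2 =
        (Nat.card H : ℝ)⁻¹ * ∑ h, ‖Θ χ (h, c)‖ ^ 2 := fun χ => by
      have := (show IsClassFunction H fun h => Θ χ (h, c) from fun g h => by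
        simpa using (hΘ χ).isClassFunction (g, c) (h, 1)).classInner_eq_sum fun h => Θ χ (h, c)
      rw [classInner_self_eq] at this
      simp only [Complex.mul_conj'] at this
      exact_mod_cast this.symm
    simp only [k1, ← mul_sum]
    rw [inv_mul_le_iff₀ (by exact_mod_cast Nat.card_pos), sum_comm, mul_comm, mul_assoc,
      ← Nat.cast_mul, ← sum_card_centralizer, Nat.cast_sum, mul_sum]
    refine sum_le_sum fun h _ => ?_
    simp only [hΘ', norm_mul, mul_pow, ← mul_sum, sum_irr_norm_sq]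
    refine (mul_le_mul_of_nonneg_right ((hΓ' c (mem_filter.1 hc).2).2 h).2 (Nat.cast_nonneg _)).trans ?_
    norm_cast
    refine (Nat.mul_le_mul_left _ (card_centralizer_mul_le V hGV hcop (pow_mem hv _) ((hHe h).1 h.2).1
      (hα c h))).trans ?_
    rw [← mul_assoc]
    refine Nat.mul_le_mul ?_ (Nat.card_le_card_of_injective (fun g => ⟨⟨g.1, (hHe _).2 ⟨g.1.2.1, ?_⟩⟩,
      mem_centralizer_singleton_iff.2 (Subtype.ext g.2)⟩) fun x y e =>
        Subtype.ext (Subtype.ext (congrArg (fun z => z.1.1) e :)))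
    · change _ ≤ Nat.card (Additive V)
      letI : CommGroup V := IsMulCommutative.instCommGroup
      rw [Submodule.card_eq_card_quotient_mul_card (fixS (conjRep V h)), mul_comm]
      refine Nat.mul_le_mul_left _ ?_
      rw [fixS, Nat.card_congr (conjRep V h - 1).quotKerEquivRange.toEquiv]
      refine Nat.card_le_card_of_injective (fun w => ⟨Additive.ofMul ⟨j w, hjV w⟩, ?_⟩) fun x y e =>
        Subtype.ext (hj (congrArg (fun z => (z.1.toMul : X)) e :))
      obtain ⟨_, u, rfl⟩ := w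
      exact ⟨Additive.ofMul ⟨j u, hjV u⟩, Additive.toMul.injective (Subtype.ext
        ((div_eq_mul_inv _ _).trans (hρ h u).symm))⟩
    · have h5 : c.toAdd.val.Coprime (orderOf v) := Nat.Coprime.coprime_dvd_right
        ((orderOf_dvd_of_pow_eq_one (hVexp v hv)).trans hpN)
        ((hz.pow_iff_coprime hN _).1 (mem_filter.1 hc).2)
      obtain ⟨k, hk⟩ := exists_pow_eq_self_of_coprime h5
      exact (congrArg (Commute _) hk).mp ((show Commute (g.1 : X)
        (v ^ c.toAdd.val) from mem_centralizer_singleton_iff.1 g.1.2.2).pow_right k)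
  have h3 := sum_le_sum fun χ (_ : χ ∈ univ) => (sum_le_sum fun φ (_ : φ ∈ univ) => h1 χ φ).trans_eq
    sum_comm
  rw [sum_comm (t := S)] at h3
  have h4 := h3.trans (sum_le_card_nsmul _ _ _ h2)
  simp only [sum_const, card_univ, ← Nat.card_eq_fintype_card, card_irr_eq_card_conjClasses,
    nsmul_eq_mul] at h4
  have h5 : (0 : ℝ) < Nat.card (ConjClasses H) * S.card := by
    exact mul_pos (by exact_mod_cast Nat.card_pos) (Nat.cast_pos.2 (card_pos.2
      ⟨Multiplicative.ofAdd 1, mem_filter.2 ⟨mem_univ _,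
        hz.pow_of_coprime _ (ZMod.val_coe_unit_coprime 1)⟩⟩))
  exact_mod_cast le_of_mul_le_mul_right (c := (Nat.card V : ℝ)) (h4.trans_eq (by ring)) h5

theorem charpoly_eq_of_adjoint {K U : Type*} [Field K] [AddCommGroup U] [Module K U]
    [FiniteDimensional K U] (B : U →ₗ[K] Dual K U) (hB : Function.Injective B) {f g : End K U}
    (h : ∀ u w, B (f u) w = B u (g w)) : f.charpoly = g.charpoly := by
  let e := LinearEquiv.ofInjectiveOfFinrankEq B hB Subspace.dual_finrank_eq.symm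
  let c := finBasis K U
  have : e.conj f = Dual.transpose (R := K) g := LinearMap.ext fun φ => by
    obtain ⟨u, rfl⟩ := e.surjective φ
    rw [LinearEquiv.conj_apply_apply, e.symm_apply_apply]
    exact LinearMap.ext (h u)
  rw [← e.charpoly_conj, this, ← LinearMap.charpoly_toMatrix _ c.dualBasis,
    LinearMap.toMatrix_transpose, Matrix.charpoly_transpose, LinearMap.charpoly_toMatrix]

/-- An additive action on a `ZMod p`-module as a representation. -/
def zmodRep {H A : Type*} [Group H] [AddCommGroup A] [Module (ZMod p) A] (f : H → A →+ A)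
    (h1 : ∀ a, f 1 a = a) (h2 : ∀ g h a, f (g * h) a = f g (f h a)) : Representation (ZMod p) H A :=
  ⟨⟨fun h => (f h).toZModLinearMap p, LinearMap.ext h1⟩, fun g h => LinearMap.ext (h2 g h)⟩

open Subgroup in
theorem kgv_real {X : Type*} [Group X] [Finite X] (V : Subgroup X)
    [V.Normal] (hVexp : ∀ v ∈ V, v ^ p = 1) (hidx : ¬ p ∣ V.index)
    (hself : centralizer (V : Set X) = V) {G : Subgroup X} (hGV : V.IsComplement' G) {v : X}
    (hv : v ∈ V) (U : Subgroup X) (hUV : U ≤ V)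
    (hUinv : ∀ h ∈ G, h * v * h⁻¹ = v → ∀ u ∈ U, h * u * h⁻¹ ∈ U)
    (hUf : ∀ h ∈ G, h * v * h⁻¹ = v → (∀ u ∈ U, h * u * h⁻¹ = u) → h = 1) (β : X → X → ZMod p)
    (hl : ∀ u ∈ U, ∀ u' ∈ U, ∀ w ∈ U, β (u * u') w = β u w + β u' w)
    (hr : ∀ u ∈ U, ∀ w ∈ U, ∀ w' ∈ U, β u (w * w') = β u w + β u w')
    (hi : ∀ h ∈ G, h * v * h⁻¹ = v → ∀ u ∈ U, ∀ w ∈ U, β (h * u * h⁻¹) (h * w * h⁻¹) = β u w)
    (hnd : ∀ u ∈ U, (∀ w ∈ U, β u w = 0) → u = 1) : Nat.card (ConjClasses X) ≤ Nat.card V := by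
  let H := G ⊓ centralizer {v}
  have hH : ∀ h : H, h * v * (h : X)⁻¹ = v := fun h =>
    mul_inv_eq_iff_eq_mul.2 (mem_centralizer_singleton_iff.1 h.2.2)
  letI : AddCommGroup (Additive U) := { (inferInstance : AddGroup (Additive U)) with
    add_comm := fun a b => Additive.toMul.injective
      (Subtype.ext (hself.ge (hUV b.toMul.2) _ (hUV a.toMul.2))) }
  haveI : Module (ZMod p) (Additive U) := AddCommGroup.zmodModule fun u =>
    Additive.toMul.injective (Subtype.ext (hVexp _ (hUV u.toMul.2)))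
  let ρ : Representation (ZMod p) H (Additive U) := zmodRep (fun h => AddMonoidHom.mk'
    (fun u => Additive.ofMul ⟨h * u.toMul * (h : X)⁻¹, hUinv h h.2.1 (hH h) _ u.toMul.2⟩) fun a b =>
      Additive.toMul.injective (Subtype.ext (by simp)))
    (fun u => Additive.toMul.injective (Subtype.ext (by simp)))
    fun a b u => Additive.toMul.injective (Subtype.ext (by simp [mul_assoc]))
  have hρ : ∀ (h : H) (u : Additive U), ((ρ h u).toMul : X) = h * u.toMul * (h : X)⁻¹ := fun _ _ => rfl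
  let B : Additive U →ₗ[ZMod p] Dual (ZMod p) (Additive U) :=
    AddMonoidHom.toZModLinearMap p (AddMonoidHom.mk' (fun u => AddMonoidHom.toZModLinearMap p
      (AddMonoidHom.mk' (fun w => β u.toMul w.toMul) fun a b => hr _ u.toMul.2 _ a.toMul.2 _ b.toMul.2))
      fun a b => LinearMap.ext fun w => hl _ a.toMul.2 _ b.toMul.2 _ w.toMul.2)
  refine kgv_of_selfDual V hVexp hidx hself hGV hv (H := H)
    (fun x => and_congr_right fun _ => mem_centralizer_singleton_iff) ρ (fun h =>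
      charpoly_eq_of_adjoint B ((injective_iff_map_eq_zero _).2 fun u hu => Additive.toMul.injective
        (Subtype.ext (hnd _ u.toMul.2 fun w hw => LinearMap.congr_fun hu (Additive.ofMul ⟨w, hw⟩))))
      fun u w => ?_) (fun h e => Subtype.ext (hUf h h.2.1 (hH h) fun u hu => ?_))
    (fun u => u.toMul) (Subtype.val_injective.comp Additive.toMul.injective)
    (fun u => hUV u.toMul.2) fun h u => div_eq_mul_inv _ _
  · refine (hi h h.2.1 (hH h) _ (ρ h⁻¹ u).toMul.2 _ w.toMul.2).symm.trans ?_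
    rw [← hρ, ← End.mul_apply, ← map_mul, mul_inv_cancel, map_one]
    rfl
  · exact (hρ h (Additive.ofMul ⟨u, hu⟩)).symm.trans (by rw [e]; rfl)

end Cfsg.Agent.H4
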