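import Cfsg.Agent.H4.Brauer

/-! Characters afforded over subfields of `ℂ`; Brauer's splitting field theorem. -/

set_option autoImplicit false

namespace Cfsg.Agent.H4

open Cfsg Cfsg.Agent.H3 Module
open scoped ComplexConjugate

variable {G : Type*} [Group G] {K : Type*} [Field K]

/-- Extension of scalars along `f : K →+* ℂ` of a matrix representation. -/
noncomputable def repExt (f : K →+* ℂ) {n : ℕ} (τ : Representation K G (Fin n → K)) :
    Representation ℂ G (Fin n → ℂ) where
  toFun g := Matrix.toLin' ((LinearMap.toMatrix' (τ g)).map f)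
  map_one' := by
    rw [map_one, LinearMap.toMatrix'_one, Matrix.map_one _ (map_zero f) (map_one f),
      Matrix.toLin'_one]
    rfl
  map_mul' a b := by
    rw [map_mul, LinearMap.toMatrix'_mul, Matrix.map_mul, Matrix.toLin'_mul]
    rfl

theorem toMatrix_repExt (f : K →+* ℂ) {n : ℕ} (τ : Representation K G (Fin n → K)) (g : G) :
    LinearMap.toMatrix' (repExt f τ g) = (LinearMap.toMatrix' (τ g)).map f :=
  LinearMap.toMatrix'_toLin' _

theorem repExt_character (f : K →+* ℂ) {n : ℕ} (τ : Representation K G (Fin n → K)) (g : G) :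
    (repExt f τ).character g = f (τ.character g) := by
  have h1 : τ.character g = (LinearMap.toMatrix' (τ g)).trace := by
    rw [Representation.character, ← Matrix.trace_toLin'_eq, Matrix.toLin'_toMatrix']
  rw [h1, Representation.character]
  change LinearMap.trace ℂ _ (Matrix.toLin' _) = _
  rw [Matrix.trace_toLin'_eq, AddMonoidHom.map_trace]

/-- `χ` is afforded by a representation over `K`. -/
def IsKChar (f : K →+* ℂ) (χ : G → ℂ) : Prop :=
  ∃ (n : ℕ) (τ : Representation K G (Fin n → K)), χ = fun g => f (τ.character g)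

theorem isKChar_rep (f : K →+* ℂ) {V : Type*} [AddCommGroup V] [Module K V]
    [FiniteDimensional K V] (τ : Representation K G V) :
    IsKChar f (fun g => f (τ.character g)) := by
  obtain ⟨σ, ⟨e⟩⟩ := exists_rep_fin τ
  exact ⟨_, σ, by rw [Representation.char_iso e]⟩

theorem IsKChar.isCharacter {f : K →+* ℂ} {χ : G → ℂ} (h : IsKChar f χ) : IsCharacter G χ := by
  obtain ⟨n, τ, rfl⟩ := h
  exact ⟨n, repExt f τ, funext (repExt_character f τ)⟩

theorem isKChar_zero (f : K →+* ℂ) : IsKChar f (0 : G → ℂ) :=
  ⟨0, Representation.trivial K G _, by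
    ext g; simp [Representation.character]⟩

theorem IsKChar.add {f : K →+* ℂ} {χ ψ : G → ℂ} (hχ : IsKChar f χ) (hψ : IsKChar f ψ) :
    IsKChar f (χ + ψ) := by
  obtain ⟨n, ρ, rfl⟩ := hχ
  obtain ⟨m, σ, rfl⟩ := hψ
  convert isKChar_rep f (ρ.prod σ) using 1
  funext g
  simp [character_prod]

theorem IsKChar.indFun [Fintype G] {f : K →+* ℂ} (H : Subgroup G) {θ : H → ℂ}
    (hθ : IsKChar f θ) : IsKChar f (indFun H θ) := by
  obtain ⟨n, ρ, rfl⟩ := hθ
  have : CharZero K := f.charZero
  convert isKChar_rep f (indRep H ρ) using 1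
  funext g
  rw [indRep_character, indFun_apply, map_mul, map_inv₀, map_natCast, map_sum]
  congr 1
  apply Finset.sum_congr rfl
  intro x _
  by_cases hx : x⁻¹ * g * x ∈ H
  · rw [ebz_of_mem H _ hx]
    exact congrArg f (Subtype.val_injective.extend_apply ρ.character 0 (⟨_, hx⟩ : H)).symm
  · rw [ebz_of_not_mem H _ hx, Function.extend_apply']
    · simp
    · rintro ⟨a, ha⟩
      exact hx (ha ▸ a.2)

theorem isKChar_monoidHom (f : K →+* ℂ) (lam : G →* K) : IsKChar f (fun g => f (lam g)) := by
  let τ : Representation K G K :=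
    { toFun := fun g => lam g • LinearMap.id
      map_one' := by ext; simp
      map_mul' := fun g h => by ext; simp [mul_comm] }
  convert isKChar_rep f τ using 3 with g
  simp [Representation.character, τ]

theorem classInner_kChar [Fintype G] (f : K →+* ℂ) {V W : Type*} [AddCommGroup V] [Module K V]
    [FiniteDimensional K V] [AddCommGroup W] [Module K W] [FiniteDimensional K W]
    (ρ : Representation K G V) (σ : Representation K G W) :
    classInner (fun g => f (σ.character g)) (fun g => f (ρ.character g)) =
      finrank K (Representation.IntertwiningMap ρ σ) := by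
  have : CharZero K := f.charZero
  let _ : Invertible (Nat.card G : K) := invertibleOfNonzero (Nat.cast_ne_zero.2 Nat.card_pos.ne')
  have h := congrArg f (Representation.card_inv_mul_sum_char_mul_char_eq_finrank ρ σ)
  rw [map_natCast] at h
  rw [← h, classInner]
  simp only [map_mul, map_inv₀, map_natCast, map_sum]
  congr 1
  apply Finset.sum_congr rfl
  intro g _
  rw [← (isKChar_rep f ρ).isCharacter.apply_inv]

theorem IsKChar.sub [Finite G] {f : K →+* ℂ} {φ ψ : G → ℂ} (hφ : IsKChar f φ) (hψ : IsKChar f ψ)
    (h : IsCharacter G (φ - ψ)) : IsKChar f (φ - ψ) := by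
  have := Fintype.ofFinite G
  have : CharZero K := f.charZero
  have : NeZero (Nat.card G : K) := ⟨Nat.cast_ne_zero.2 Nat.card_pos.ne'⟩
  obtain ⟨m, σ, rfl⟩ := hψ
  induction m using Nat.strong_induction_on generalizing φ with
  | _ m ih =>
  by_cases hm : m = 0
  · subst hm
    convert hφ using 1
    funext g
    simp [Representation.character, Subsingleton.elim (σ g) 0]
  obtain ⟨n, ρ, rfl⟩ := hφ
  have hne : (⊤ : Subrepresentation σ) ≠ ⊥ := by
    rw [Ne, subrep_eq_bot_iff]
    have : Nonempty (Fin m) := ⟨⟨0, Nat.pos_of_ne_zero hm⟩⟩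
    exact (top_ne_bot (α := Submodule K (Fin m → K)))
  obtain ⟨U, -, hU0, hU⟩ := exists_irreducible_le ⊤ hne
  obtain ⟨U', hU'⟩ := exists_isCompl U
  have hc := isCompl_toSubmodule hU'
  have hσ := character_eq_add_of_isCompl σ U U' hc
  have hUc := (isKChar_rep f U.toRepresentation).isCharacter
  -- `U` embeds in `ρ`
  have h1 : classInner (fun g => f (ρ.character g))
      (fun g => f (U.toRepresentation.character g)) ≠ 0 := by
    obtain ⟨a, ha⟩ := h.exists_nat_classInner hUc
    obtain ⟨b, hb⟩ := (isKChar_rep f U'.toRepresentation).isCharacter.exists_nat_classInner hUc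
    obtain ⟨c, hc'⟩ := hUc.exists_nat_classInner hUc
    have hc0 : c ≠ 0 := by
      rintro rfl
      rw [Nat.cast_zero, classInner_self_eq_zero] at hc'
      have := congrFun hc' 1
      simp only [Representation.char_one, map_natCast, Pi.zero_apply, Nat.cast_eq_zero] at this
      exact (finrank_pos_of_isIrreducible U.toRepresentation).ne' this
    have e : (fun g => f (ρ.character g)) = ((fun g => f (ρ.character g)) -
        (fun g => f (σ.character g))) + (fun g => f (U'.toRepresentation.character g)) +
        (fun g => f (U.toRepresentation.character g)) := by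
      funext g
      simp only [hσ, Pi.add_apply, Pi.sub_apply, map_add]
      ring
    rw [e, classInner_add_left, classInner_add_left, ha, hb, hc']
    have : a + b + c ≠ 0 := by omega
    exact_mod_cast this
  rw [classInner_kChar, Nat.cast_ne_zero] at h1
  have : Nontrivial (Representation.IntertwiningMap U.toRepresentation ρ) :=
    Module.nontrivial_of_finrank_pos (Nat.pos_of_ne_zero h1)
  obtain ⟨T, hT⟩ := exists_ne (0 : Representation.IntertwiningMap U.toRepresentation ρ)
  have hinj := (Representation.IsIrreducible.injective_or_eq_zero T).resolve_right hT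
  have e : U.toRepresentation.Equiv T.range.toRepresentation :=
    Representation.Equiv.mk (LinearEquiv.ofInjective T.toLinearMap hinj) fun g => by
      apply LinearMap.ext
      intro v
      apply Subtype.ext
      exact T.isIntertwining _ _ g v
  obtain ⟨W', hW'⟩ := exists_isCompl T.range
  have hρ := character_eq_add_of_isCompl ρ T.range W' (isCompl_toSubmodule hW')
  rw [← Representation.char_iso e] at hρ
  obtain ⟨σ', ⟨e'⟩⟩ := exists_rep_fin U'.toRepresentation
  have e2 : (fun g => f (ρ.character g)) - (fun g => f (σ.character g)) =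
      (fun g => f (W'.toRepresentation.character g)) - (fun g => f (σ'.character g)) := by
    funext g
    simp [hρ, hσ, Representation.char_iso e']
  rw [e2] at h ⊢
  refine ih _ ?_ (isKChar_rep f _) σ' h
  have h1 := Submodule.finrank_add_eq_of_isCompl hc
  have h2 := finrank_pos_of_isIrreducible U.toRepresentation
  simp only [Module.finrank_fintype_fun_eq_card, Fintype.card_fin] at h1
  omega

/-- Brauer: every character is afforded over any subfield containing the roots of unity of order
dividing the exponent. -/
theorem isKChar_of_roots [Finite G] (f : K →+* ℂ)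
    (hf : ∀ z : ℂ, z ^ Monoid.exponent G = 1 → z ∈ f.range) {χ : G → ℂ} (hχ : IsCharacter G χ) :
    IsKChar f χ := by
  have := Fintype.ofFinite G
  have key : ∀ θ ∈ monoSpan (fun E : Subgroup G => ∃ p : ℕ, p.Prime ∧ IsElementary p E),
      ∃ φ ψ, IsKChar f φ ∧ IsKChar f ψ ∧ θ = φ - ψ := by
    intro θ hθ
    induction hθ using AddSubgroup.closure_induction with
    | mem θ hθ =>
      obtain ⟨E, lam, -, rfl⟩ := hθ
      refine ⟨_, 0, IsKChar.indFun E ?_, isKChar_zero f, (sub_zero _).symm⟩
      have h1 : ∀ e : E, (lam e : ℂ) ∈ f.range := fun e => hf _ (by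
        rw [← Units.val_pow_eq_pow_val, ← map_pow,
          show e ^ Monoid.exponent G = 1 from Subtype.ext (by simp [Monoid.pow_exponent_eq_one])]
        simp)
      choose mu hmu using h1
      let mu' : E →* K :=
        { toFun := mu
          map_one' := f.injective (by simp [hmu])
          map_mul' := fun a b => f.injective (by simp [hmu]) }
      convert isKChar_monoidHom f mu' using 2 with e
      exact (hmu e).symm
    | zero => exact ⟨0, 0, isKChar_zero f, isKChar_zero f, by simp⟩
    | add a b _ _ ha hb =>
      obtain ⟨φ, ψ, h1, h2, rfl⟩ := ha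
      obtain ⟨φ', ψ', h1', h2', rfl⟩ := hb
      exact ⟨_, _, h1.add h1', h2.add h2', by abel⟩
    | neg a _ ha =>
      obtain ⟨φ, ψ, h1, h2, rfl⟩ := ha
      exact ⟨_, _, h2, h1, by abel⟩
  obtain ⟨φ, ψ, h1, h2, rfl⟩ := key χ (brauer_induction hχ.isGeneralizedCharacter)
  exact h1.sub h2 hχ

theorem exists_equiv_repExt [Finite G] {f : K →+* ℂ} {n : ℕ} (ρ : Representation ℂ G (Fin n → ℂ))
    (h : IsKChar f ρ.character) :
    ∃ τ : Representation K G (Fin n → K), Nonempty (ρ.Equiv (repExt f τ)) := by
  obtain ⟨m, τ, hτ⟩ := h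
  have : n = m := by
    have := congrFun hτ 1
    simpa using this
  subst this
  exact ⟨τ, nonempty_equiv_of_character_eq _ _ (by rw [hτ]; exact (funext (repExt_character f τ)).symm)⟩

end Cfsg.Agent.H4
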